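import Cfsg.Agent.H4.As4

/-! Alternating sections of linear groups, 5: the central case (`As.central`) and the imprimitive and symplectic-type reductions
(`As.abel_case`, `As.sympl_case`). -/

set_option autoImplicit false
set_option linter.unusedSectionVars false

namespace H4.Gs.As
open Module Equiv Equiv.Perm H11
open scoped commutatorElement

/-- the degree bound -/
def bd (p r : ℕ) : ℕ := r - 1 - (if p ∣ r then 1 else 0)

theorem bd_le (p r : ℕ) : bd p r ≤ r - 1 := Nat.sub_le _ _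
theorem le_bd (p r : ℕ) : r - 2 ≤ bd p r := by unfold bd; split_ifs <;> omega

/-- the degree bound holds for every alternating quotient of `H` -/
def PP (H : Type) [Group H] : Prop := ∀ (Ω : Type) [Fintype Ω] [DecidableEq Ω] (f : H →* Perm Ω), f.range = alternatingGroup Ω →
  9 ≤ Fintype.card Ω → ∀ (p : ℕ) [Fact p.Prime] (K : Type) [Field K] [IsAlgClosed K] [CharP K p], Bd K f (bd p (Fintype.card Ω))

variable {Γ Ω : Type} [Group Γ] [Fintype Ω] [DecidableEq Ω] {f : Γ →* Perm Ω}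
variable {K V : Type} [Field K] [AddCommGroup V] [Module K V]

theorem Bd.mono {m m' : ℕ} (h : Bd K f m) (h' : m' ≤ m) : Bd K f m' := fun U _ _ _ σ hσ => h'.trans (h U σ hσ)

theorem central [IsAlgClosed K] [FiniteDimensional K V] (p : ℕ) [hp : Fact p.Prime] [CharP K p] (C : Cov f) (h9 : 9 ≤ Fintype.card Ω)
    (ih : ∀ G : Subgroup Γ, G ≠ ⊤ → PP G) (ρ : Γ →* End K V) (hρ : Function.Injective ρ) (sc : ∀ k, f k = 1 → ∃ c : K, ρ k = c • 1)
    (NF : ∀ v, (∀ g, ρ g v = v) → v = 0) (MIN : ∀ M : Subgroup Γ, M.map f = alternatingGroup Ω → M = ⊤) :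
    bd p (Fintype.card Ω) ≤ finrank K V := by
  by_cases A : CaseA f ρ
  · exact caseA p A C (by omega) hρ (A.inj C (by omega) hρ sc MIN) NF
  simp only [CaseA, not_forall] at A
  obtain ⟨a, b, c, a', b', c', hn, x, y, hx, hy, fx, fy, hB⟩ := A
  let q : Fin 6 ↪ Ω := ⟨![a, b, c, a', b', c'], List.nodup_ofFn.1 (by simpa using hn)⟩
  obtain ⟨e, he⟩ := ext_emb q (m := 8) (by omega) (by omega)
  have H := fun m => half C ρ e hx hy (fx.trans congr(cy $((he 0).symm) $((he 1).symm) $((he 2).symm)))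
    (fy.trans congr(cy $((he 3).symm) $((he 4).symm) $((he 5).symm))) hB (m := m)
  have ch : ∀ l : ℕ, l.Prime → p ≠ l → (l : K) ≠ 0 := fun l hl h e =>
    h ((Nat.prime_dvd_prime_iff_eq hp.out hl).1 ((CharP.cast_eq_zero_iff K p l).1 e))
  have hb := bd_le p (Fintype.card Ω)
  by_cases h12 : 12 ≤ Fintype.card Ω
  · have := H (Fintype.card Ω - 5) fun Ω' _ _ hc G f₁ hG C₁ =>
      (ih G hG Ω' f₁ C₁.range (by omega) p K).mono (le_trans (by omega) (le_bd _ _))
    omega
  have h4 : p ≠ 3 → 8 ≤ finrank K V := fun h => H 4 fun Ω' _ _ hc G f₁ _ C₁ => f6 C₁ (ch 3 Nat.prime_three h) (by omega)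
  by_cases h10 : Fintype.card Ω = 9
  · by_cases h3 : p = 3
    · have := lin8 C (K := K) (by simpa using ch 2 Nat.prime_two (by omega)) (by omega) V ρ (by simp [(MonoidHom.ker_eq_bot_iff ρ).2 hρ])
      rwa [h3, h10]
    · have := h4 h3; omega
  by_cases h5 : p = 5
  · by_cases h11 : Fintype.card Ω = 10
    · rw [h5, h11]; exact h4 (by omega)
    · have := H 7 fun Ω' _ _ hc G f₁ _ C₁ => lin8 C₁ (by simpa using ch 2 Nat.prime_two (by omega)) (by omega)
      omega
  obtain ⟨e, he⟩ := ext_emb q (m := 10) (by omega) (by omega)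
  obtain ⟨G, f₁, C₁, h1, h2⟩ := C.restrict e
  replace fx : f x = viaEmbeddingHom e (cy 0 1 2) := by rw [ι_cy]; exact fx.trans congr(cy $((he 0).symm) $((he 1).symm) $((he 2).symm))
  replace fy : f y = viaEmbeddingHom e (cy 3 4 5) := by rw [ι_cy]; exact fy.trans congr(cy $((he 3).symm) $((he 4).symm) $((he 5).symm))
  have := five C₁ (ch 5 Nat.prime_five h5) (ρ.comp G.subtype) (x := ⟨x, h2 _ _ (sign_cy (by decide) (by decide)) fx⟩)
    (y := ⟨y, h2 _ _ (sign_cy (by decide) (by decide)) fy⟩) (Subtype.ext hx) (Subtype.ext hy)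
    (viaEmbeddingHom_injective e ((h1 _).symm.trans fx)) (viaEmbeddingHom_injective e ((h1 _).symm.trans fy)) hB
  omega

theorem cov_of_central [Finite Γ] (hr : f.range = alternatingGroup Ω) (h8 : 8 ≤ Fintype.card Ω) (hc : f.ker ≤ Subgroup.center Γ)
    (hp : commutator Γ = ⊤) : Cov f := by
  let e := Fintype.equivFin Ω
  have hk : ((viaEmbeddingHom e.toEmbedding).comp f).ker = f.ker := by
    ext x; exact map_eq_one_iff _ (viaEmbeddingHom_injective _)
  have := H16.alt_mult (by omega) (by omega) (by omega) ((viaEmbeddingHom e.toEmbedding).comp f) (le_antisymm ?_ fun τ hτ => ?_) (hk ▸ hc)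
    (hp ▸ le_top)
  · refine ⟨hr, fun k hk g => Subgroup.mem_center_iff.1 (hc hk) g, fun k h => ?_⟩
    have h1 : k ^ Nat.card f.ker = 1 := congrArg Subtype.val (pow_card_eq_one' (x := (⟨k, h⟩ : f.ker)))
    have h2 : 0 < Nat.card f.ker := Nat.card_pos
    rw [hk] at this
    obtain h3 | h3 : Nat.card f.ker = 1 ∨ Nat.card f.ker = 2 := by omega
    · rw [h3, pow_one] at h1; rw [h1, one_pow]
    · rwa [h3] at h1
  · rintro _ ⟨g, rfl⟩
    exact (ι_sign _ _).trans (hr.le ⟨g, rfl⟩)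
  · obtain ⟨g, hg⟩ := hr.ge (show viaEmbeddingHom e.symm.toEmbedding τ ∈ _ from (ι_sign _ _).trans hτ)
    refine ⟨g, Equiv.ext fun t => ?_⟩
    have a := ι_apply e.toEmbedding (f g) (e.symm t)
    have b := ι_apply e.symm.toEmbedding τ t
    simp only [Equiv.coe_toEmbedding, Equiv.apply_symm_apply] at a b
    rw [MonoidHom.comp_apply, a, hg, b, Equiv.apply_symm_apply]

theorem abel_case [Finite Γ] [IsAlgClosed K] [FiniteDimensional K V] [Nontrivial V] (hr : f.range = alternatingGroup Ω) (h9 : 9 ≤ Fintype.card Ω)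
    (NM : ∀ N : Subgroup Γ, N.Normal → N ≠ ⊤ → N ≤ f.ker) (ρ : Γ →* End K V) (hρ : Function.Injective ρ)
    (IRR : ∀ U : Submodule K V, U ≠ ⊥ → (∀ g, U ≤ U.comap (ρ g)) → U = ⊤) (L : Subgroup Γ) [hL : L.Normal]
    (hc : ∀ x ∈ L, ∀ y ∈ L, Commute x y) (hn : ¬ L ≤ Subgroup.center Γ) : Fintype.card Ω - 1 ≤ finrank K V := by
  obtain ⟨v, -, h0, χ, hχ⟩ := joint (fun l : L => ρ l) (fun a b => (hc _ a.2 _ b.2).map ρ) ⊤ top_ne_bot (by simp)
  let S : Subgroup Γ := {
    carrier := {g | ∀ l ∈ L, ρ (g⁻¹ * l * g) v = ρ l v}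
    one_mem' := by simp
    mul_mem' := fun {a b} ha hb l hl => by
      rw [← ha l hl, ← hb _ (hL.conj_mem' l hl a)]; simp [mul_assoc]
    inv_mem' := fun {a} ha l hl => by
      rw [← ha _ (hL.conj_mem' l hl a⁻¹)]; simp [mul_assoc] }
  have e1 : ∀ (g : Γ) (l : L) u, ρ l (ρ g u) = ρ g (ρ (g⁻¹ * l * g) u) := fun g l u => by
    simp only [← End.mul_apply, ← map_mul]; simp [mul_assoc]
  have h1 : S.index ≤ finrank K V := li_card (fun l : L => ρ l) (fun j : Γ ⧸ S => ρ j.out v)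
    (fun j l => χ ⟨_, hL.conj_mem' l l.2 j.out⟩) (fun j => ne_zero_of ρ _ h0) (fun j l => by rw [e1, ← map_smul, ← hχ]) fun j j' e => by
      rw [← j.out_eq', ← j'.out_eq', Quotient.eq'', QuotientGroup.leftRel_apply]
      intro l hl
      have := congrArg (· • v) (congrFun e ⟨_, hL.conj_mem l hl j.out⟩)
      simp only [← hχ] at this
      simpa [mul_assoc] using this.symm
  have h2 : S ≠ ⊤ := fun h => hn fun l hl => Subgroup.mem_center_iff.2 fun g => hρ (by
    have := IRR (⨅ l : L, End.eigenspace (ρ l) (χ l)) ((Submodule.ne_bot_iff _).2 ⟨v, by simpa using hχ, h0⟩) fun g u hu => by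
      simp only [Submodule.mem_iInf, End.mem_eigenspace_iff, Submodule.mem_comap] at hu ⊢
      intro l
      have := (h ▸ Subgroup.mem_top g : g ∈ S) l l.2
      rw [hχ ⟨_, hL.conj_mem' l l.2 g⟩, hχ] at this
      rw [e1, hu ⟨_, hL.conj_mem' l l.2 g⟩, smul_left_injective K h0 this, map_smul]
    have k : ∀ u, ρ l u = χ ⟨l, hl⟩ • u := fun u => End.mem_eigenspace_iff.1 ((Submodule.mem_iInf _).1 (this.ge Submodule.mem_top) ⟨l, hl⟩)
    ext u; simp [k])
  have h3 : S.normalCore.index ∣ S.index.factorial := by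
    rw [Subgroup.normalCore_eq_ker, Subgroup.index_ker, Subgroup.index_eq_card, ← Nat.card_perm]
    exact Subgroup.card_subgroup_dvd_card _
  have h4 := Nat.le_of_dvd (Nat.factorial_pos _)
    ((Subgroup.index_dvd_of_le (NM _ inferInstance fun h => h2 (top_le_iff.1 (h ▸ S.normalCore_le)))).trans h3)
  have : Nontrivial Ω := Fintype.one_lt_card_iff_nontrivial.1 (by omega)
  have h5 := two_mul_nat_card_alternatingGroup (α := Ω)
  rw [Subgroup.index_ker, hr] at h4
  rw [Nat.card_perm, Nat.card_eq_fintype_card (α := Ω)] at h5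
  by_contra! h
  obtain ⟨r, hr⟩ : ∃ r, Fintype.card Ω = r + 2 := ⟨_, (Nat.sub_add_cancel (by omega)).symm⟩
  have h6 := Nat.factorial_le (show S.index ≤ r by omega)
  have h7 := Nat.factorial_pos r
  rw [hr, Nat.factorial_succ, Nat.factorial_succ] at h5
  have h8 := Nat.mul_le_mul (show 9 ≤ r + 1 + 1 by omega) (Nat.mul_le_mul_right r.factorial (show 8 ≤ r + 1 by omega))
  rw [← h5] at h8
  omega

theorem quot [Finite Γ] (ih : ∀ (H : Type) [Group H] [Finite H], Nat.card H < Nat.card Γ → PP H) (hr : f.range = alternatingGroup Ω)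
    (h9 : 9 ≤ Fintype.card Ω) (p : ℕ) [Fact p.Prime] [IsAlgClosed K] [CharP K p] [FiniteDimensional K V] (ρ : Γ →* End K V) (h : ρ.ker ≤ f.ker)
    (h0 : ρ.ker ≠ ⊥) : bd p (Fintype.card Ω) ≤ finrank K V := by
  refine ih (Γ ⧸ ρ.ker) ?_ Ω (QuotientGroup.lift _ f h) (by rw [← hr]; ext; simp [QuotientGroup.exists_mk]) h9 p K V
    (QuotientGroup.lift _ ρ le_rfl) fun x hx => ?_
  · have := Subgroup.card_eq_card_quotient_mul_card_subgroup ρ.ker
    have h1 := (Subgroup.one_lt_card_iff_ne_bot _).2 h0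
    have h2 : 0 < Nat.card (Γ ⧸ ρ.ker) := Nat.card_pos
    nlinarith
  · obtain ⟨x, rfl⟩ := QuotientGroup.mk_surjective x
    exact h hx

theorem scalar [IsAlgClosed K] [FiniteDimensional K V] [Nontrivial V] (ρ : Γ →* End K V)
    (IRR : ∀ U : Submodule K V, U ≠ ⊥ → (∀ g, U ≤ U.comap (ρ g)) → U = ⊤) {z : Γ} (hz : z ∈ Subgroup.center Γ) : ∃ c : K, ρ z = c • 1 := by
  obtain ⟨c, hc⟩ := End.exists_eigenvalue (ρ z)
  refine ⟨c, LinearMap.ext fun u => End.mem_eigenspace_iff.1 ((IRR _ hc fun g u hu => End.mem_eigenspace_iff.2 ?_).ge Submodule.mem_top)⟩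
  rw [← End.mul_apply, ← map_mul, ← Subgroup.mem_center_iff.1 hz, map_mul, End.mul_apply, End.mem_eigenspace_iff.1 hu, map_smul]

theorem sq_card [Finite Γ] [IsAlgClosed K] [FiniteDimensional K V] [Nontrivial V] (ρ : Γ →* End K V) (hρ : Function.Injective ρ)
    (IRR : ∀ U : Submodule K V, U ≠ ⊥ → (∀ g, U ≤ U.comap (ρ g)) → U = ⊤) (L : Subgroup Γ) (h1 : ⁅L, L⁆ ≤ Subgroup.center Γ)
    (h2 : L ⊓ Subgroup.centralizer L ≤ Subgroup.center Γ) :
    Nat.card (L.map (QuotientGroup.mk' (Subgroup.center Γ))) ≤ finrank K V * finrank K V := by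
  choose x hx ex using fun j : L.map (QuotientGroup.mk' (Subgroup.center Γ)) => j.2
  choose μ hμ using fun j (y : L) => scalar ρ IRR (h1 (Subgroup.commutator_mem_commutator y.2 (hx j)))
  rw [← Module.finrank_linearMap K K V V]
  refine li_card (fun y : L => (LinearMap.mulLeft K (ρ y) * LinearMap.mulRight K (ρ y⁻¹) : End K (End K V))) (fun j => ρ (x j)) μ
    (fun j h => ?_) (fun j y => ?_) fun j j' e => Subtype.ext ?_
  · obtain ⟨v, hv⟩ := exists_ne (0 : V)
    exact ne_zero_of ρ (x j) hv (by simp [h])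
  · rw [← smul_one_mul, ← hμ, ← map_mul, End.mul_apply, LinearMap.mulLeft_apply, LinearMap.mulRight_apply, ← map_mul, ← map_mul]
    simp [commutatorElement_def, mul_assoc]
  · rw [← ex, ← ex, QuotientGroup.mk'_apply, QuotientGroup.mk'_apply, QuotientGroup.eq]
    refine h2 ⟨L.mul_mem (L.inv_mem (hx j)) (hx j'), fun y (hy : y ∈ L) => ?_⟩
    have := hρ ((hμ j ⟨y⁻¹, inv_mem hy⟩).trans ((congrFun e _ ▸ hμ j' ⟨y⁻¹, inv_mem hy⟩ :).symm))
    simp only [commutatorElement_def, mul_assoc, mul_right_inj, inv_inv] at this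
    calc _ = (x j)⁻¹ * (x j * (y * (x j)⁻¹)) * x j' := by group
      _ = _ := by rw [this]; group

theorem zmod_rep (l : ℕ) [Fact l.Prime] {A : Type} [CommGroup A] [Finite A] [Module (ZMod l) (Additive A)] (φ : Γ →* MulAut A) :
    ∃ d, Nat.card A = l ^ d ∧ ∃ τ : Γ →* End (AlgebraicClosure (ZMod l)) (Fin d → AlgebraicClosure (ZMod l)), ∀ g, g ∈ τ.ker ↔ ∀ x, φ g x = x := by
  have : Module.Finite (ZMod l) (Additive A) := Module.Finite.of_finite
  let σ : Γ →* End (ZMod l) (Additive A) := {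
    toFun := fun g => (MonoidHom.toAdditive (φ g).toMonoidHom).toZModLinearMap l
    map_one' := by ext; simp
    map_mul' := fun _ _ => by ext; simp }
  obtain ⟨τ, hτ⟩ := bc (F := ZMod l) (U := Additive A) (algebraMap (ZMod l) (AlgebraicClosure (ZMod l))) σ
  refine ⟨_, ?_, τ, fun g => hτ ▸ ⟨fun h x => LinearMap.congr_fun h (Additive.ofMul x), fun h => LinearMap.ext h⟩⟩
  rw [show Nat.card A = Nat.card (Additive A) from rfl, Module.natCard_eq_pow_finrank (K := ZMod l), Nat.card_zmod]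

theorem sympl_case [Finite Γ] (ih : ∀ (H : Type) [Group H] [Finite H], Nat.card H < Nat.card Γ → PP H) (hr : f.range = alternatingGroup Ω)
    (h9 : 9 ≤ Fintype.card Ω) (NM : ∀ N : Subgroup Γ, N.Normal → N ≠ ⊤ → N ≤ f.ker) (hp : commutator Γ = ⊤) (L : Subgroup Γ) [hL : L.Normal]
    (h1 : ⁅L, L⁆ ≤ Subgroup.center Γ) (hn : ¬ L ≤ Subgroup.center Γ) (hm : ∀ M : Subgroup Γ, M.Normal → M < L → M ≤ Subgroup.center Γ) :
    2 ^ (Fintype.card Ω - 2) ≤ Nat.card (L.map (QuotientGroup.mk' (Subgroup.center Γ))) := by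
  set π := QuotientGroup.mk' (Subgroup.center Γ)
  have hπ : ∀ x, π x = 1 ↔ x ∈ Subgroup.center Γ := fun x => QuotientGroup.eq_one_iff x
  have cm : ∀ x ∈ L, ∀ y ∈ L, Commute (π x) (π y) := fun x hx y hy => by
    rw [← commutatorElement_eq_one_iff_commute, ← map_commutatorElement, hπ]
    exact h1 (Subgroup.commutator_mem_commutator hx hy)
  have hN : (L.map π).Normal := hL.map π (QuotientGroup.mk'_surjective _)
  have nb : L.map π ≠ ⊥ := fun h => hn fun x hx => (hπ x).1 (h.le ⟨x, hx, rfl⟩)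
  obtain ⟨l, hl, hd⟩ := Nat.exists_prime_and_dvd ((Subgroup.one_lt_card_iff_ne_bot _).2 nb).ne'
  have : Fact l.Prime := ⟨hl⟩
  obtain ⟨⟨_, a, ha, rfl⟩, ho⟩ := exists_prime_orderOf_dvd_card' l hd
  replace ho : orderOf (π a) = l := (Subgroup.orderOf_coe _).trans ho
  let M : Subgroup Γ := {
    carrier := {x | x ∈ L ∧ π x ^ l = 1}
    one_mem' := ⟨one_mem _, by simp⟩
    mul_mem' := fun {a b} ha hb => ⟨mul_mem ha.1 hb.1, by rw [map_mul, (cm _ ha.1 _ hb.1).mul_pow, ha.2, hb.2, one_mul]⟩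
    inv_mem' := fun {a} ha => ⟨inv_mem ha.1, by rw [map_inv, inv_pow, ha.2, inv_one]⟩ }
  have hM : M = L := by
    by_contra h
    have := hm M ⟨fun x hx g => ⟨hL.conj_mem x hx.1 g, by rw [map_mul, map_mul, map_inv, conj_pow, hx.2]; simp⟩⟩
      (lt_of_le_of_ne (fun x hx => hx.1) h) ⟨ha, ho ▸ pow_orderOf_eq_one _⟩
    rw [(hπ a).2 this, orderOf_one] at ho
    exact hl.ne_one ho.symm
  let : CommGroup (L.map π) := { (inferInstance : Group (L.map π)) with
    mul_comm := by rintro ⟨_, x, hx, rfl⟩ ⟨_, y, hy, rfl⟩; exact Subtype.ext (cm x hx y hy) }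
  obtain ⟨d, hd', σ, hσ'⟩ := @zmod_rep _ _ l _ _ _ _ (AddCommGroup.zmodModule (by rintro ⟨_, x, hx, rfl⟩; exact Subtype.ext (hM.ge hx).2))
    ((MulAut.conjNormal (H := L.map π)).comp π)
  have hσ := fun g => (hσ' g).trans (c := ∀ x ∈ L, ⁅g, x⁆ ∈ Subgroup.center Γ) <| by
    simp only [← hπ, commutatorElement_def, map_mul, map_inv, mul_inv_eq_one]
    exact ⟨fun h x hx => congrArg Subtype.val (h ⟨_, x, hx, rfl⟩), fun h => by rintro ⟨_, x, hx, rfl⟩; exact Subtype.ext (h x hx)⟩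
  have := quot ih hr h9 l σ (NM _ inferInstance fun h => hn ?_) fun h => hn fun x hx => ?_
  · rw [Module.finrank_fin_fun] at this
    rw [hd']
    exact (Nat.pow_le_pow_right two_pos ((le_bd _ _).trans this)).trans (Nat.pow_le_pow_left hl.two_le _)
  · have k : ⁅(⊤ : Subgroup Γ), L⁆ ≤ Subgroup.center Γ := Subgroup.commutator_le.2 fun g _ x hx => (hσ g).1 (h ▸ Subgroup.mem_top g) x hx
    have k' := Subgroup.commutator_commutator_eq_bot_of_rotate (H₁ := ⊤) (H₂ := ⊤) (H₃ := L)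
      (Subgroup.commutator_eq_bot_iff_le_centralizer.2 (k.trans (Subgroup.center_le_centralizer _)))
      (Subgroup.commutator_eq_bot_iff_le_centralizer.2 ((Subgroup.commutator_comm _ _).le.trans (k.trans (Subgroup.center_le_centralizer _))))
    rw [← commutator_def, hp, Subgroup.commutator_comm, Subgroup.commutator_eq_bot_iff_le_centralizer] at k'
    exact fun x hx => Subgroup.mem_center_iff.2 fun g => k' hx g trivial
  · rw [(h.le ((hσ x).2 fun y hy => h1 (Subgroup.commutator_mem_commutator hx hy)) : x = 1)]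
    exact one_mem _

theorem card_lt_top [Finite Γ] {G : Subgroup Γ} (h : G ≠ ⊤) : Nat.card G < Nat.card Γ :=
  lt_of_le_of_ne G.card_le_card_group fun e => h (G.eq_top_of_card_eq e)

theorem irr_case [Finite Γ] [IsAlgClosed K] [FiniteDimensional K V] [Nontrivial V] (p : ℕ) [Fact p.Prime] [CharP K p]
    (ih : ∀ (H : Type) [Group H] [Finite H], Nat.card H < Nat.card Γ → PP H) (hr : f.range = alternatingGroup Ω) (h9 : 9 ≤ Fintype.card Ω)
    (MIN : ∀ M : Subgroup Γ, M.map f = alternatingGroup Ω → M = ⊤) (hp : commutator Γ = ⊤) (ρ : Γ →* End K V) (hρ : Function.Injective ρ)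
    (IRR : ∀ U : Submodule K V, U ≠ ⊥ → (∀ g, U ≤ U.comap (ρ g)) → U = ⊤) : bd p (Fintype.card Ω) ≤ finrank K V := by
  have NM : ∀ N : Subgroup Γ, N.Normal → N ≠ ⊤ → N ≤ f.ker := fun N _ h => (normal_alt hr (by omega) N).resolve_right fun d => h (MIN N d)
  by_cases hc : f.ker ≤ Subgroup.center Γ
  · refine central p (cov_of_central hr (by omega) hc hp) h9 (fun G hG => ih G ?_) ρ hρ (fun k hk => scalar ρ IRR (hc hk)) (fun v hv => ?_) MIN
    · exact card_lt_top hG
    · by_contra h0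
      have := IRR (⨅ g, End.eigenspace (ρ g) 1) ((Submodule.ne_bot_iff _).2 ⟨v, by simpa using hv, h0⟩) fun g u hu => by
        simp only [Submodule.mem_iInf, End.mem_eigenspace_iff, Submodule.mem_comap, one_smul] at hu ⊢
        simp [hu]
      obtain ⟨a, b, c, -, -, -, k1, k2, k3⟩ := fresh3 ([] : List Ω) (by simp; omega)
      obtain ⟨g, hg⟩ := hr.ge (sign_cy k1 k2.symm : cy a b c ∈ alternatingGroup Ω)
      have k : ρ g = ρ 1 := LinearMap.ext fun u => by simpa using (Submodule.mem_iInf _).1 (this.ge Submodule.mem_top : u ∈ _) g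
      exact cy_ne_one k1 k2.symm k3.symm (by rw [← hg, hρ k, map_one])
  obtain ⟨L, ⟨hL, hk, hn⟩, hm⟩ := WellFounded.has_min wellFounded_lt {L : Subgroup Γ | L.Normal ∧ L ≤ f.ker ∧ ¬ L ≤ Subgroup.center Γ}
    ⟨_, inferInstance, le_rfl, hc⟩
  replace hm : ∀ M : Subgroup Γ, M.Normal → M < L → M ≤ Subgroup.center Γ := fun M h1 h2 => by_contra fun h => hm M ⟨h1, h2.le.trans hk, h⟩ h2
  refine (bd_le _ _).trans ?_
  by_cases ha : ∀ x ∈ L, ∀ y ∈ L, Commute x y
  · exact abel_case hr h9 NM ρ hρ IRR L ha hn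
  have hF : L ≤ frattini Γ := hk.trans (le_iInf₂ fun M (hM : IsCoatom M) => by_contra fun h => hM.1 (MIN M (by
    have := congrArg (Subgroup.map f) (hM.2 (M ⊔ f.ker) (left_lt_sup.2 h))
    rwa [Subgroup.map_sup, Subgroup.map_ker_self, sup_bot_eq, ← MonoidHom.range_eq_map, hr] at this)))
  have := frattini_nilpotent (G := Γ)
  have : Group.IsSolvable L := Group.isSolvable_of_isSolvable_injective (Subgroup.inclusion_injective hF)
  have h1 : ⁅L, L⁆ < L := by
    have : Nontrivial L := (Subgroup.nontrivial_iff_ne_bot L).2 fun h => hn (h ▸ bot_le)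
    rw [← L.range_subtype, MonoidHom.range_eq_map, ← Subgroup.map_commutator, Subgroup.map_subtype_lt_map_subtype]
    exact Group.IsSolvable.commutator_lt_top_of_nontrivial L
  have h2 := (sympl_case ih hr h9 NM hp L (hm _ inferInstance h1) hn hm).trans (sq_card ρ hρ IRR L (hm _ inferInstance h1)
    (hm _ inferInstance (lt_of_le_of_ne inf_le_left fun h => ha fun x hx y hy => (h.ge hy).2 x hx)))
  by_contra! h
  have h3 : ∀ n, 5 ≤ n → n * n < 2 ^ n := fun n hn => by
    induction n, hn using Nat.le_induction with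
    | base => norm_num
    | succ n hn ih => rw [pow_succ]; nlinarith
  have h4 := h3 (Fintype.card Ω - 2) (by omega)
  have h5 : finrank K V ≤ Fintype.card Ω - 2 := by omega
  exact absurd (h2.trans (Nat.mul_le_mul h5 h5)) h4.not_ge

theorem main (H : Type) [Group H] [Finite H] : PP H := by
  induction hn : Nat.card H using Nat.strong_induction_on generalizing H with
  | _ n ih =>
  replace ih : ∀ (G : Type) [Group G] [Finite G], Nat.card G < Nat.card H → PP G := fun G _ _ h => ih _ (hn ▸ h) G rfl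
  intro Ω _ _ f hr h9 p _ K _ _ _
  by_cases MIN : ∀ M : Subgroup H, M.map f = alternatingGroup Ω → M = ⊤
  swap
  · push Not at MIN
    obtain ⟨M, h1, h2⟩ := MIN
    exact fun V _ _ _ ρ hρ => ih M (card_lt_top h2) Ω (f.comp M.subtype)
      (by rw [MonoidHom.range_comp, Subgroup.range_subtype, h1]) h9 p K V (ρ.comp M.subtype) fun x hx => hρ hx
  have hp : commutator H = ⊤ := MIN _ (by
    rw [commutator_def, Subgroup.map_commutator, ← MonoidHom.range_eq_map, hr, commutator_alternatingGroup_eq_self (by simp; omega)])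
  have nt : f.ker ≠ ⊤ := fun h => by
    obtain ⟨a, b, c, -, -, -, k1, k2, k3⟩ := fresh3 ([] : List Ω) (by simp; omega)
    obtain ⟨g, hg⟩ := hr.ge (sign_cy k1 k2.symm : cy a b c ∈ alternatingGroup Ω)
    exact cy_ne_one k1 k2.symm k3.symm (hg ▸ (h ▸ Subgroup.mem_top g : g ∈ f.ker))
  intro V _ _ _ ρ hρ
  induction hd : finrank K V using Nat.strong_induction_on generalizing V with
  | _ d ihd =>
  subst hd
  by_cases h0 : ρ.ker = ⊥
  swap
  · exact quot ih hr h9 p ρ hρ h0
  have : Nontrivial V := by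
    by_contra h
    rw [not_nontrivial_iff_subsingleton] at h
    exact nt (top_le_iff.1 fun g _ => hρ (Subsingleton.elim _ _))
  by_cases IRR : ∀ U : Submodule K V, U ≠ ⊥ → (∀ g, U ≤ U.comap (ρ g)) → U = ⊤
  · exact irr_case p ih hr h9 MIN hp ρ ((MonoidHom.ker_eq_bot_iff ρ).1 h0) IRR
  push Not at IRR
  obtain ⟨U, u1, hU, u2⟩ := IRR
  have e := U.finrank_quotient_add_finrank
  have e1 := Submodule.finrank_lt u2
  have e2 : finrank K U ≠ 0 := by simpa using u1
  rcases normal_alt hr (by omega) (MonoidHom.ker (Representation.subrepresentation ρ U hU)) with h1 | h1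
  · exact (ihd _ e1 U _ h1 rfl).trans e1.le
  rcases normal_alt hr (by omega) (MonoidHom.ker (Representation.quotient ρ U hU)) with h2 | h2
  · exact (ihd _ (by omega) (V ⧸ U) _ h2 rfl).trans (by omega)
  have k1 : ∀ g, ∀ u ∈ U, ρ g u = u := fun g => (mem_ker_sub hU).1 ((MIN _ h1).ge (Subgroup.mem_top g))
  have k2 : ∀ g v, ρ g v - v ∈ U := fun g v =>
    (Submodule.Quotient.eq U).1 (LinearMap.congr_fun ((MIN _ h2).ge (Subgroup.mem_top g)) (Submodule.Quotient.mk v))
  have k3 : ∀ g h v, ρ g (ρ h v) = ρ g v + ρ h v - v := fun g h v => by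
    have := k1 g _ (k2 h v)
    rw [map_sub, sub_eq_iff_eq_add] at this
    rw [this]; abel
  refine absurd (top_le_iff.1 (hp.ge.trans (Subgroup.commutator_le.2 fun g _ h _ => hρ ?_))) nt
  rw [MonoidHom.mem_ker, commutatorElement_def, mul_assoc, ← mul_inv_rev, map_mul, show ρ (g * h) = ρ (h * g) from LinearMap.ext fun v => by
    simp only [map_mul, End.mul_apply]; rw [k3, k3 h, add_comm], ← map_mul, mul_inv_cancel, map_one]

end H4.Gs.As
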