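import Mathlib

/-! Alternating sections of linear groups, 1: joint eigenvectors (`As.li`, `As.joint`), scalars, base change of a degree bound. -/

set_option autoImplicit false

namespace H4.Gs.As
open Module

variable {K V : Type*} [Field K] [AddCommGroup V] [Module K V]

theorem li {ι κ : Type*} (T : ι → End K V) (v : κ → V) (μ : κ → ι → K) (hv : ∀ j, v j ≠ 0)
    (h : ∀ j i, T i (v j) = μ j i • v j) (inj : Function.Injective μ) : LinearIndependent K v := by
  have key : ∀ j (m : FreeMonoid ι), FreeMonoid.lift T m (v j) = FreeMonoid.lift (μ j) m • v j := fun j m => by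
    induction m using FreeMonoid.inductionOn' with
    | one => simp
    | of_mul i m ih => simp [ih, h, smul_smul, mul_comm]
  have inj' : Function.Injective fun j => (FreeMonoid.lift (μ j) : FreeMonoid ι →* K) := fun a b e =>
    inj (FreeMonoid.lift.injective e)
  have L := linearIndependent_iff'.1 ((linearIndependent_monoidHom (FreeMonoid ι) K).comp _ inj')
  refine linearIndependent_iff'.2 fun s c hc j hj => ?_
  obtain ⟨φ, hφ⟩ := Projective.exists_dual_ne_zero K (hv j)
  refine (mul_eq_zero.1 (L s (fun j => c j * φ (v j)) ?_ j hj)).resolve_right hφ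
  funext m
  have := congrArg (fun x => φ (FreeMonoid.lift T m x)) hc
  simp only [map_sum, map_smul, key, map_zero, smul_eq_mul] at this
  simp only [Finset.sum_apply, Pi.smul_apply, Function.comp, smul_eq_mul, Pi.zero_apply]
  rw [← this]
  exact Finset.sum_congr rfl fun _ _ => by ring

theorem li_card [FiniteDimensional K V] {ι κ : Type*} [Finite κ] (T : ι → End K V) (v : κ → V) (μ : κ → ι → K) (hv : ∀ j, v j ≠ 0)
    (h : ∀ j i, T i (v j) = μ j i • v j) (inj : Function.Injective μ) : Nat.card κ ≤ finrank K V := by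
  have := Fintype.ofFinite κ
  rw [Nat.card_eq_fintype_card]
  exact (li T v μ hv h inj).fintype_card_le_finrank

theorem joint [IsAlgClosed K] [FiniteDimensional K V] {ι : Type*} (T : ι → End K V) (hc : ∀ i j, Commute (T i) (T j))
    (U : Submodule K V) (hU : U ≠ ⊥) (hi : ∀ i, ∀ u ∈ U, T i u ∈ U) :
    ∃ v ∈ U, v ≠ 0 ∧ ∃ μ : ι → K, ∀ i, T i v = μ i • v := by
  induction hn : finrank K U using Nat.strong_induction_on generalizing U with
  | _ n ih =>
  by_cases h : ∀ i, ∃ a : K, ∀ u ∈ U, T i u = a • u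
  · choose μ hμ using h
    obtain ⟨v, hv, h0⟩ := Submodule.exists_mem_ne_zero_of_ne_bot hU
    exact ⟨v, hv, h0, μ, fun i => hμ i v hv⟩
  push Not at h
  obtain ⟨i, h⟩ := h
  have : Nontrivial U := Submodule.nontrivial_iff_ne_bot.2 hU
  obtain ⟨a, ha⟩ := End.exists_eigenvalue ((T i).restrict (hi i))
  obtain ⟨w, hw, hw0⟩ := ha.exists_hasEigenvector
  have hw' : T i w = a • (w : V) := congrArg Subtype.val (End.mem_eigenspace_iff.1 hw)
  obtain ⟨u, hu, hu'⟩ := h a
  have lt : U ⊓ End.eigenspace (T i) a < U := lt_of_le_of_ne inf_le_left fun e =>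
    hu' (End.mem_eigenspace_iff.1 (e.ge hu).2)
  obtain ⟨v, hv, h1⟩ := ih _ (hn ▸ Submodule.finrank_lt_finrank_of_lt lt) (U ⊓ End.eigenspace (T i) a)
    ((Submodule.ne_bot_iff _).2 ⟨w, ⟨w.2, End.mem_eigenspace_iff.2 hw'⟩, fun e => hw0 (Subtype.ext e)⟩)
    (fun j x hx => ⟨hi j x hx.1, End.mem_eigenspace_iff.2 (by
      rw [← End.mul_apply, (hc i j).eq, End.mul_apply, End.mem_eigenspace_iff.1 hx.2, map_smul])⟩) rfl
  exact ⟨v, hv.1, h1⟩

/-- a joint eigenvector in the image of a commuting operator -/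
theorem joint' [IsAlgClosed K] [FiniteDimensional K V] {ι : Type*} (T : ι → End K V) (hc : ∀ i j, Commute (T i) (T j))
    (B : End K V) (hB : B ≠ 0) (hi : ∀ i, Commute (T i) B) :
    ∃ w, B w ≠ 0 ∧ ∃ μ : ι → K, ∀ i, T i (B w) = μ i • B w := by
  obtain ⟨_, ⟨w, rfl⟩, h⟩ := joint T hc (LinearMap.range B) (mt LinearMap.range_eq_bot.1 hB) (by
    rintro i _ ⟨w, rfl⟩; exact ⟨T i w, by rw [← End.mul_apply, ← (hi i).eq, End.mul_apply]⟩)
  exact ⟨w, h⟩

theorem bc {H : Type*} [Group H] {F U : Type*} [Field F] [AddCommGroup U] [Module F U] [FiniteDimensional F U] (φ : F →+* K)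
    (σ : H →* End F U) : ∃ ρ : H →* End K (Fin (finrank F U) → K), ρ.ker = σ.ker := by
  let b := Module.finBasis F U
  let ψ : End F U →* End K (Fin (finrank F U) → K) := (Matrix.toLinAlgEquiv' (R := K)).toMonoidHom.comp
    ((φ.mapMatrix (m := Fin (finrank F U))).toMonoidHom.comp (LinearMap.toMatrixAlgEquiv b).toMonoidHom)
  have : Function.Injective ψ := (Matrix.toLinAlgEquiv' (R := K)).injective.comp
    ((Matrix.map_injective φ.injective).comp (LinearMap.toMatrixAlgEquiv b).injective)
  exact ⟨ψ.comp σ, by ext x; simp only [MonoidHom.mem_ker, MonoidHom.comp_apply]; exact map_eq_one_iff ψ this⟩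

end H4.Gs.As
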