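import Cfsg.Agent.H4.As1
import Cfsg.Agent.H16.AltM

/-! Alternating sections of linear groups, 2: covers `As.Cov` of alternating groups, restriction to fewer points, small degree bounds
(`f6`, `lin8`, `five`). -/

set_option autoImplicit false
set_option linter.unusedSectionVars false

namespace H4.Gs.As
open Module Equiv Equiv.Perm H11

structure Cov {Γ Ω : Type*} [Group Γ] [Fintype Ω] [DecidableEq Ω] (f : Γ →* Perm Ω) : Prop where
  range : f.range = alternatingGroup Ω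
  cen : ∀ k, f k = 1 → ∀ g, g * k = k * g
  sq : ∀ k, f k = 1 → k ^ 2 = 1

section emb
variable {Ω Ω' : Type*} (e : Ω' ↪ Ω)

theorem ι_apply (σ : Perm Ω') (x : Ω') : viaEmbeddingHom e σ (e x) = e (σ x) := viaEmbedding_apply σ e x
theorem ι_fix (σ : Perm Ω') {x : Ω} (h : x ∉ Set.range e) : viaEmbeddingHom e σ x = x := viaEmbedding_apply_of_notMem σ e x h

variable [DecidableEq Ω] [DecidableEq Ω']
theorem ι_swap (a b : Ω') : viaEmbeddingHom e (swap a b) = swap (e a) (e b) := by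
  ext x
  by_cases h : x ∈ Set.range e
  · obtain ⟨x, rfl⟩ := h
    rw [ι_apply, e.injective.swap_apply]
  · rw [ι_fix e _ h, swap_apply_of_ne_of_ne (fun d => h ⟨_, d.symm⟩) (fun d => h ⟨_, d.symm⟩)]
theorem ι_cy (a b c : Ω') : viaEmbeddingHom e (cy a b c) = cy (e a) (e b) (e c) := by
  simp only [cy, map_mul, ι_swap]
theorem ι_sign [Fintype Ω] [Fintype Ω'] (σ : Perm Ω') : sign (viaEmbeddingHom e σ) = sign σ := by
  classical
  rw [viaEmbeddingHom_apply, viaEmbedding]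
  convert sign_extendDomain σ (ofInjective e.1 e.2)
end emb

variable {Γ Ω : Type} [Group Γ] [Fintype Ω] [DecidableEq Ω] {f : Γ →* Perm Ω}

/-- every module whose kernel lies in the kernel of `f` has dimension at least `m` -/
def Bd (K : Type) [Field K] (f : Γ →* Perm Ω) (m : ℕ) : Prop :=
  ∀ (U : Type) [AddCommGroup U] [Module K U] [FiniteDimensional K U] (σ : Γ →* End K U), σ.ker ≤ f.ker → m ≤ finrank K U

namespace Cov
variable (C : Cov f)
include C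

theorem lift {σ : Perm Ω} (h : sign σ = 1) : ∃ g, f g = σ := C.range.ge (mem_alternatingGroup.2 h)
theorem sgn (g : Γ) : sign (f g) = 1 := mem_alternatingGroup.1 (C.range.le ⟨g, rfl⟩)
theorem dec {y y' : Γ} (e : f y = f y') : ∃ k, f k = 1 ∧ y' = y * k := ⟨y⁻¹ * y', by simp [e], by simp⟩
theorem pow_eq {y y' : Γ} (e : f y = f y') {m : ℕ} (hm : Even m) : y ^ m = y' ^ m := by
  obtain ⟨k, hk, rfl⟩ := C.dec e
  obtain ⟨m, rfl⟩ := hm
  rw [Commute.mul_pow (C.cen k hk y), ← two_mul, pow_mul k, C.sq k hk, one_pow, mul_one]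
theorem uniq {m : ℕ} (hm : Odd m) {y y' : Γ} (h : y ^ m = 1) (h' : y' ^ m = 1) (e : f y = f y') : y = y' := by
  have := C.pow_eq e hm.add_one
  rwa [pow_succ, pow_succ, h, h', one_mul, one_mul] at this
theorem lift_odd {m : ℕ} (hm : Odd m) {σ : Perm Ω} (h : sign σ = 1) (h' : σ ^ m = 1) : ∃ y, y ^ m = 1 ∧ f y = σ := by
  obtain ⟨w, rfl⟩ := C.lift h
  refine ⟨w ^ (m + 1), ?_, by rw [map_pow, pow_succ, h', one_mul]⟩
  rw [← pow_mul, mul_comm, pow_mul, ← C.pow_eq (y := 1) (by rw [map_pow, h', map_one]) hm.add_one, one_pow]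
theorem semi {m : ℕ} (hm : Odd m) {y y' g : Γ} (h : y ^ m = 1) (h' : y' ^ m = 1) (e : f y' * f g = f g * f y) : y' * g = g * y := by
  rw [C.uniq hm h' (y' := g * y * g⁻¹) (by rw [conj_pow, h]; simp) (by simp [← e])]
  simp
theorem lift3 {a b c : Ω} (h1 : a ≠ b) (h2 : c ≠ a) (h3 : c ≠ b) : ∃ y, y ^ 3 = 1 ∧ f y = cy a b c :=
  C.lift_odd (by decide) (sign_cy h1 h2) (by rw [← (H16.cy_three h1 h2 h3).orderOf, pow_orderOf_eq_one])

theorem trans {ι : Type} [Fintype ι] (s t : ι → Ω) (hs : Function.Injective s) (ht : Function.Injective t)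
    (h : Fintype.card ι + 2 ≤ Fintype.card Ω) : ∃ g, ∀ i, f g (s i) = t i := by
  obtain ⟨σ, hσ⟩ := Perm.exists_extending_pair s t hs ht
  rcases Int.units_eq_one_or (sign σ) with h1 | h1
  · obtain ⟨g, rfl⟩ := C.lift h1; exact ⟨g, hσ⟩
  have : 1 < (Finset.univ.image s)ᶜ.card := by
    rw [Finset.card_compl, Finset.card_image_of_injective _ hs, Finset.card_univ]; omega
  obtain ⟨a, ha, b, hb, hab⟩ := Finset.one_lt_card.1 this
  simp only [Finset.mem_compl, Finset.mem_image, Finset.mem_univ, true_and, not_exists] at ha hb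
  obtain ⟨g, hg⟩ := C.lift (σ := σ * swap a b) (by simp [h1, sign_swap hab])
  exact ⟨g, fun i => by rw [hg, mul_apply, swap_apply_of_ne_of_ne (ha i) (hb i), hσ]⟩

theorem restrict {Ω' : Type} [Fintype Ω'] [DecidableEq Ω'] (e : Ω' ↪ Ω) : ∃ (G : Subgroup Γ) (f₁ : G →* Perm Ω'), Cov f₁ ∧
    (∀ g : G, f g = viaEmbeddingHom e (f₁ g)) ∧ ∀ g σ, sign σ = 1 → f g = viaEmbeddingHom e σ → g ∈ G := by
  have hι := viaEmbeddingHom_injective e
  let G := ((alternatingGroup Ω').map (viaEmbeddingHom e)).comap f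
  have hG : ∀ g : G, f g ∈ (viaEmbeddingHom e).range := fun g => let ⟨σ, _, h⟩ := g.2; ⟨σ, h⟩
  let f₁ : G →* Perm Ω' := (MonoidHom.ofInjective hι).symm.toMonoidHom.comp ((f.comp G.subtype).codRestrict _ hG)
  have h1 : ∀ g : G, f g = viaEmbeddingHom e (f₁ g) := fun g => (MonoidHom.apply_ofInjective_symm hι ⟨f g, hG g⟩).symm
  have h2 : ∀ g σ, sign σ = 1 → f g = viaEmbeddingHom e σ → g ∈ G := fun g σ h h' => ⟨σ, h, h'.symm⟩
  refine ⟨G, f₁, ⟨le_antisymm ?_ fun σ hσ => ?_, fun k hk g => Subtype.ext (C.cen k (by rw [h1, hk, map_one]) g),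
    fun k hk => Subtype.ext (C.sq k (by rw [h1, hk, map_one]))⟩, h1, h2⟩
  · rintro _ ⟨g, rfl⟩
    rw [mem_alternatingGroup, ← ι_sign e, ← h1, C.sgn]
  · obtain ⟨g, hg⟩ := C.lift (σ := viaEmbeddingHom e σ) (by rw [ι_sign]; exact hσ)
    exact ⟨⟨g, h2 g σ hσ hg⟩, hι (by rw [← h1, hg])⟩

theorem bd_of_fin {K : Type} [Field K] {s m : ℕ} (hs : s ≤ Fintype.card Ω)
    (h : ∀ (G : Type) [Group G] (f₁ : G →* Perm (Fin s)), Cov f₁ → Bd K f₁ m) : Bd K f m := fun U _ _ _ σ hσ => by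
  obtain ⟨e⟩ : Nonempty (Fin s ↪ Ω) := Function.Embedding.nonempty_of_card_le (by simpa)
  obtain ⟨G, f₁, C₁, h1, -⟩ := C.restrict e
  exact h G f₁ C₁ U (σ.comp G.subtype) fun g hg => viaEmbeddingHom_injective e (by rw [← h1, map_one]; exact hσ hg)
end Cov

variable {K V : Type} [Field K] [AddCommGroup V] [Module K V]

theorem pow_eig {c : End K V} {v : V} {a : K} (h : c v = a • v) (n : ℕ) : (c ^ n) v = a ^ n • v := by
  induction n with
  | zero => simp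
  | succ n ih => rw [pow_succ, End.mul_apply, h, map_smul, ih, smul_smul, pow_succ']

theorem root_of {c : End K V} {v : V} {a : K} {m : ℕ} (hc : c ^ m = 1) (h0 : v ≠ 0) (h : c v = a • v) : a ^ m = 1 := by
  have := pow_eig h m
  rw [hc, End.one_apply] at this
  exact smul_left_injective K h0 (this.symm.trans (one_smul K v).symm)

theorem ne_one_of {c : End K V} {m : ℕ} (hc : c ^ m = 1) (hm : (m : K) ≠ 0) {w : V} (h0 : (c - 1) w ≠ 0) {a : K}
    (h : c ((c - 1) w) = a • (c - 1) w) : a ≠ 1 := by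
  rintro rfl
  have := congrArg (· w) (geom_sum_mul c m)
  simp only [End.mul_apply, LinearMap.sum_apply, pow_eig h, hc, sub_self, LinearMap.zero_apply, one_pow, one_smul, Finset.sum_const,
    Finset.card_range] at this
  rw [← Nat.cast_smul_eq_nsmul K] at this
  exact h0 ((smul_eq_zero.1 this).resolve_left hm)

theorem exps {m : ℕ} [hm : Fact m.Prime] {a : K} (h : a ^ m = 1) (h1 : a ≠ 1) : ∃ e : ZMod m → K, Function.Injective e ∧ e 0 = 1 ∧ e 1 = a ∧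
    (∀ x (n : ℕ), e (n * x) = e x ^ n) ∧ ∀ b, b ^ m = 1 → ∃ x, e x = b := by
  have ho := orderOf_eq_prime h h1
  refine ⟨fun x => a ^ x.val, fun x y e => ZMod.val_injective m (pow_injOn_Iio_orderOf (ho ▸ x.val_lt) (ho ▸ y.val_lt) e), by simp,
    by simp [ZMod.val_one], fun x n => ?_, fun b hb => ?_⟩
  · simp only [← pow_mul]
    rw [ZMod.val_mul, ZMod.val_natCast, mul_comm x.val]
    exact pow_eq_pow_of_modEq ((Nat.mod_modEq _ _).trans ((Nat.mod_modEq _ _).mul_right _)) h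
  · obtain ⟨i, hi, e⟩ := (ho ▸ IsPrimitiveRoot.orderOf a :).eq_pow_of_pow_eq_one hb
    exact ⟨i, by simp only [ZMod.val_natCast, Nat.mod_eq_of_lt hi, e]⟩

/-- a joint eigenvector of `c`, `c'` -/
def Ev (ρ : Γ →* End K V) (c c' : Γ) (a b : K) : Prop := ∃ w, w ≠ 0 ∧ ρ c w = a • w ∧ ρ c' w = b • w

theorem ne_zero_of (ρ : Γ →* End K V) (g : Γ) {w : V} (h : w ≠ 0) : ρ g w ≠ 0 := fun e => h (by
  have := congrArg (ρ g⁻¹) e
  rwa [← End.mul_apply, ← map_mul, inv_mul_cancel, map_one, map_zero] at this)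

theorem eig_step (ρ : Γ →* End K V) {c d g : Γ} {w : V} {a : K} {i : ℕ} (h : ρ d w = a • w) (e : c * g = g * d ^ i) :
    ρ c (ρ g w) = a ^ i • ρ g w := by
  rw [← End.mul_apply, ← map_mul, e, map_mul, map_pow, End.mul_apply, pow_eig h, map_smul]

theorem Ev.card [FiniteDimensional K V] {ρ : Γ →* End K V} {c c' : Γ} {κ A : Type} [Finite κ] {e : A → K} (he : Function.Injective e)
    (x : κ → A × A) (hx : Function.Injective x) (h : ∀ j, Ev ρ c c' (e (x j).1) (e (x j).2)) : Nat.card κ ≤ finrank K V := by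
  choose w h0 h1 h2 using h
  exact li_card ![ρ c, ρ c'] w (fun j => ![e (x j).1, e (x j).2]) h0 (fun j i => by fin_cases i <;> simp [h1, h2])
    fun j j' d => hx (Prod.ext (he (congrFun d 0)) (he (congrFun d 1)))

theorem Ev.ex [IsAlgClosed K] [FiniteDimensional K V] (ρ : Γ →* End K V) {c c' : Γ} (h : Commute c c') (B : End K V) (hB : B ≠ 0)
    (h1 : Commute (ρ c) B) (h2 : Commute (ρ c') B) : ∃ (w : V) (a b : K), B w ≠ 0 ∧ ρ c (B w) = a • B w ∧ ρ c' (B w) = b • B w := by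
  obtain ⟨w, h0, μ, hμ⟩ := joint' ![ρ c, ρ c'] (fun i j => by
    fin_cases i <;> fin_cases j <;> simp [h.map ρ, h.symm.map ρ]) B hB (fun i => by fin_cases i <;> simp [h1, h2])
  exact ⟨w, μ 0, μ 1, h0, hμ 0, hμ 1⟩

theorem perm6 : ∃ x y g : Perm (Fin 6), sign x = 1 ∧ sign y = 1 ∧ sign g = 1 ∧ x ^ 3 = 1 ∧ y ^ 3 = 1 ∧ x ≠ 1 ∧ x * y = y * x ∧
    x * g = g * y ^ 2 ∧ y * g = g * x ^ 1 :=
  ⟨cy 1 0 2, cy 4 3 5, swap 0 3 * [1, 4, 2, 5].formPerm, by decide +kernel⟩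

theorem f6 [IsAlgClosed K] (C : Cov f) (h3 : ((3 : ℕ) : K) ≠ 0) (h : 6 ≤ Fintype.card Ω) : Bd K f 4 := by
  refine C.bd_of_fin h fun G _ f C V _ _ _ ρ hρ => ?_
  let s : ZMod 3 × ZMod 3 → ZMod 3 × ZMod 3 := fun z => ((2 : ℕ) * z.2, z.1)
  have hs : ∀ b : ZMod 3, Function.Injective fun j : Fin 4 => s^[j] (1, b) := by decide
  have : Fact (Nat.Prime 3) := ⟨Nat.prime_three⟩
  obtain ⟨x, y, g, s1, s2, s3, p1, p2, n1, e1, e2, e3⟩ := perm6
  obtain ⟨x, q1, rfl⟩ := C.lift_odd (by decide) s1 p1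
  obtain ⟨y, q2, rfl⟩ := C.lift_odd (by decide) s2 p2
  obtain ⟨g, rfl⟩ := C.lift s3
  have c1 : Commute x y := C.semi (by decide) q1 q1 e1
  have c2 : x * g = g * y ^ 2 := C.semi (by decide) (by rw [← pow_mul, mul_comm, pow_mul, q2, one_pow]) q1 (by rw [map_pow, e2])
  have c3 : y * g = g * x ^ 1 := C.semi (by decide) (by simpa using q1) q2 (by rw [map_pow, e3])
  have r1 : ρ x ^ 3 = 1 := by rw [← map_pow, q1, map_one]
  obtain ⟨w, a, b, h0, h1, h2⟩ := Ev.ex ρ c1 (ρ x - 1) (fun e => n1 (hρ (sub_eq_zero.1 e))) (by simp)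
    ((c1.symm.map ρ).sub_right (Commute.one_right _))
  obtain ⟨e, i1, -, i2, i3, i4⟩ := exps (root_of r1 h0 h1) (ne_one_of r1 h3 h0 h1)
  obtain ⟨b, rfl⟩ := i4 b (root_of (by rw [← map_pow, q2, map_one]) h0 h2)
  have key : ∀ n, Ev ρ x y (e (s^[n] (1, b)).1) (e (s^[n] (1, b)).2) := fun n => by
    induction n with
    | zero => exact ⟨_, h0, i2 ▸ h1, h2⟩
    | succ n ih =>
      obtain ⟨w, h0, h1, h2⟩ := ih
      rw [Function.iterate_succ_apply']
      exact ⟨_, ne_zero_of ρ g h0, i3 _ _ ▸ eig_step ρ h2 c2, by simpa using eig_step ρ h1 c3⟩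
  simpa using Ev.card i1 (fun j : Fin 4 => s^[j] (1, b)) (hs b) fun j => key j

theorem perm8 : ∃ a g : Perm (Fin 8), sign a = 1 ∧ sign g = 1 ∧ g ^ 7 = 1 ∧ a ^ 2 = 1 ∧ a ≠ g * a * g⁻¹ ∧
    (∀ j : ZMod 7, j ≠ 0 → ∃ k : ZMod 7, a * (g ^ j.val * a * (g ^ j.val)⁻¹) = g ^ k.val * a * (g ^ k.val)⁻¹) ∧
    (g ^ 1 * a * (g ^ 1)⁻¹) * (g ^ 2 * a * (g ^ 2)⁻¹) = g ^ 4 * a * (g ^ 4)⁻¹ :=
  ⟨swap 0 7 * swap 1 3 * swap 2 6 * swap 4 5, [0, 1, 2, 3, 4, 5, 6].formPerm, by decide +kernel⟩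

theorem lin8 [IsAlgClosed K] (C : Cov f) (h2 : (2 : K) ≠ 0) (h : 8 ≤ Fintype.card Ω) : Bd K f 7 := by
  refine C.bd_of_fin h fun G _ f C V _ _ _ ρ hρ => ?_
  obtain ⟨a, g, s1, s2, p1, p2, n1, e1, e2⟩ := perm8
  obtain ⟨g, q1, rfl⟩ := C.lift_odd (by decide) s2 p1
  obtain ⟨a, rfl⟩ := C.lift s1
  obtain ⟨A, hA⟩ : ∃ A : ZMod 7 → G, ∀ i, A i = g ^ i.val * a * (g ^ i.val)⁻¹ := ⟨_, fun _ => rfl⟩
  have A0 : A 0 = a := by simp [hA]
  have sh : ∀ i j : ZMod 7, g ^ j.val * A i * (g ^ j.val)⁻¹ = A (i + j) := fun i j => by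
    rw [hA, hA, ZMod.val_add, ← pow_eq_pow_mod _ q1]; group
  have k1 : f (a ^ 2) = 1 := by rw [map_pow, p2]
  have sq : ∀ i, A i ^ 2 = a ^ 2 := fun i => by rw [hA, conj_pow, C.cen _ k1, mul_inv_cancel_right]
  have c1 : ∀ j, j ≠ 0 → a * A j * a⁻¹ = A j * (a ^ 2)⁻¹ := fun j hj => by
    obtain ⟨k, e⟩ := e1 j hj
    have := C.pow_eq (y := a * A j) (y' := A k) (by simpa [hA] using e) even_two
    rw [sq k, ← sq j, pow_two, pow_two, ← mul_assoc, mul_left_inj] at this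
    calc _ = a * A j * a * (a ^ 2)⁻¹ := by group
      _ = _ := by rw [this]
  have k2 : a ^ 2 = 1 := by
    obtain ⟨k, hk, e⟩ := C.dec (y := A 4) (y' := A 1 * A 2) (by simp only [hA, map_mul, map_inv, map_pow]; exact e2.symm)
    have := congrArg (fun x => a * x * a⁻¹) e
    simp only [← conj_mul, c1 1 (by decide), c1 2 (by decide), c1 4 (by decide), C.cen k hk a, mul_inv_cancel_right] at this
    have z := C.cen (a ^ 2)⁻¹ (by rw [map_inv, k1, inv_one])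
    rw [mul_assoc (A 4), ← z k, ← mul_assoc (A 4), ← e, ← mul_assoc, mul_left_inj, mul_assoc, ← z, ← mul_assoc] at this
    simpa using this
  have c2 : ∀ j, Commute a (A j) := fun j => by
    by_cases hj : j = 0
    · rw [hj, A0]
    · have := c1 j hj
      rwa [k2, inv_one, mul_one, mul_inv_eq_iff_eq_mul] at this
  have c3 : ∀ i j, Commute (A i) (A j) := fun i j => by
    have := (c2 (j - i)).map (MulAut.conj (g ^ i.val))
    rwa [← A0, MulAut.conj_apply, MulAut.conj_apply, sh, sh, zero_add, sub_add_cancel] at this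
  obtain ⟨w, h0, μ, hμ⟩ := joint' (fun i => ρ (A i)) (fun i j => (c3 i j).map ρ) (ρ (A 0) - ρ (A 1)) (fun e => n1 (by
    have : A 0 * (A 1)⁻¹ ∈ ρ.ker := by rw [MonoidHom.mem_ker, map_mul, sub_eq_zero.1 e, ← map_mul, mul_inv_cancel, map_one]
    have := hρ this
    rw [MonoidHom.mem_ker, map_mul, map_inv, mul_inv_eq_one, A0, hA] at this
    simpa only [map_mul, map_inv, show (1 : ZMod 7).val = 1 from rfl, pow_one] using this)) fun i => ((c3 i 0).map ρ).sub_right ((c3 i 1).map ρ)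
  have r2 : ∀ i, ρ (A i) ^ 2 = 1 := fun i => by rw [← map_pow, sq, k2, map_one]
  have n2 : μ 0 ≠ μ 1 := fun e => by
    have e1 : (ρ (A 0) + ρ (A 1)) * (ρ (A 0) - ρ (A 1)) = 0 := by
      rw [← ((c3 0 1).map ρ).mul_self_sub_mul_self_eq, ← pow_two, ← pow_two, r2, r2, sub_self]
    have e2 := congrArg (· w) e1
    simp only [End.mul_apply, LinearMap.add_apply, hμ, ← e, ← add_smul, ← two_mul, LinearMap.zero_apply, smul_eq_zero, h0, or_false,
      mul_eq_zero, h2, false_or] at e2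
    simpa [e2] using root_of (r2 0) h0 (hμ 0)
  have := li_card (fun i => ρ (A i)) (fun j : ZMod 7 => ρ (g ^ j.val) ((ρ (A 0) - ρ (A 1)) w)) (fun j i => μ (i - j))
    (fun j => ne_zero_of ρ _ h0) (fun j i => by
      simpa using eig_step ρ (c := A i) (g := g ^ j.val) (i := 1) (hμ (i - j)) (by rw [pow_one, mul_inv_eq_iff_eq_mul.1 (sh _ _), sub_add_cancel])) ?_
  · simpa using this
  intro j j' e
  by_contra hne
  have pe : Function.Periodic μ (j - j') := fun x => by simpa [sub_add_sub_cancel', add_sub_assoc] using (congrFun e (x + j)).symm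
  have : Fact (Nat.Prime 7) := ⟨by norm_num⟩
  have := pe.nat_mul (j - j')⁻¹.val 0
  rw [ZMod.natCast_zmod_val, inv_mul_cancel₀ (sub_ne_zero.2 hne), zero_add] at this
  exact n2 this.symm

/-- the stabilizer of an operator under left multiplication -/
def stab (ρ : Γ →* End K V) (T : End K V) : Subgroup Γ where
  carrier := {g | ρ g * T = T}
  one_mem' := by simp
  mul_mem' := fun {a b} (ha : _ = _) (hb : _ = _) => show _ = _ by rw [map_mul, mul_assoc, hb, ha]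
  inv_mem' := fun {a} (ha : _ = _) => show _ = _ by
    nth_rw 1 [← ha]; rw [← mul_assoc, ← map_mul, inv_mul_cancel, map_one, one_mul]

theorem mem_stab {ρ : Γ →* End K V} {T : End K V} {g : Γ} : g ∈ stab ρ T ↔ (ρ g - 1) * T = 0 := by
  rw [sub_mul, one_mul, sub_eq_zero]; rfl

theorem conj_stab {ρ : Γ →* End K V} {x g h : Γ} (hg : g ∈ stab ρ (ρ x - 1)) (c : Commute h x) : h * g * h⁻¹ ∈ stab ρ (ρ x - 1) := by
  have c' : Commute (ρ h⁻¹) (ρ x - 1) := (c.inv_left.map ρ).sub_right (Commute.one_right _)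
  change _ = _ at hg ⊢
  rw [map_mul, map_mul, mul_assoc, c'.eq, mul_assoc, ← mul_assoc (ρ g), hg, ← c'.eq, ← mul_assoc, ← map_mul, mul_inv_cancel, map_one, one_mul]

theorem stab_symm {ρ : Γ →* End K V} {x y : Γ} (c : Commute x y) (h : x ∈ stab ρ (ρ y - 1)) : y ∈ stab ρ (ρ x - 1) := by
  rw [mem_stab] at h ⊢
  rwa [← (((c.map ρ).sub_right (Commute.one_right _)).sub_left (Commute.one_left _)).eq]

theorem perm10 : ∃ c c' g g' h h' : Perm (Fin 10), sign c = 1 ∧ sign c' = 1 ∧ sign g = 1 ∧ sign g' = 1 ∧ sign h = 1 ∧ sign h' = 1 ∧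
    c ^ 5 = 1 ∧ c' ^ 5 = 1 ∧ c * c' = c' * c ∧ c * g = g * c' ^ 3 ∧ c' * g = g * c ^ 1 ∧ c * g' = g' * c ^ 4 ∧ c' * g' = g' * c' ^ 1 ∧
    c * h' = h' * c ∧ c * cy 3 4 5 = cy 3 4 5 * c ∧ cy 3 4 5 * h = h * cy 3 4 5 ∧ (cy 0 1 2 : Perm (Fin 10)) * cy 3 4 5 = cy 3 4 5 * cy 0 1 2 ∧
    c' * (h' * c'⁻¹ * h'⁻¹) = cy 3 4 5 ∧ c * (h * c⁻¹ * h⁻¹) = cy 0 1 2 :=
  ⟨[0, 1, 6, 2, 7].formPerm, [3, 4, 8, 5, 9].formPerm, ⟨![3, 4, 5, 0, 6, 1, 8, 9, 7, 2], ![3, 5, 9, 0, 1, 2, 4, 8, 6, 7], by decide, by decide⟩,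
    swap 1 7 * swap 2 6, [0, 1, 6].formPerm, [3, 4, 8].formPerm, by decide +kernel⟩

theorem five [IsAlgClosed K] [FiniteDimensional K V] {f : Γ →* Perm (Fin 10)} (C : Cov f) (h5 : ((5 : ℕ) : K) ≠ 0) (ρ : Γ →* End K V) {x y : Γ}
    (hx : x ^ 3 = 1) (hy : y ^ 3 = 1) (fx : f x = cy 0 1 2) (fy : f y = cy 3 4 5) (hB : y ∉ stab ρ (ρ x - 1)) : 16 ≤ finrank K V := by
  let s : ZMod 5 × ZMod 5 → ZMod 5 × ZMod 5 := fun z => ((3 : ℕ) * z.2, z.1)
  let t : ZMod 5 × ZMod 5 → ZMod 5 × ZMod 5 := fun z => ((4 : ℕ) * z.1, z.2)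
  have hs : ∀ b : ZMod 5, b ≠ 0 → Function.Injective fun j : Fin 8 × Fin 2 => s^[j.1] (t^[j.2] (1, b)) := by decide +kernel
  have : Fact (Nat.Prime 5) := ⟨by norm_num⟩
  obtain ⟨c, c', g, g', h, h', s1, s2, s3, s4, s5, s6, p1, p2, e1, e2, e3, e4, e5, e6, e7, e8, e9, e10, e11⟩ := perm10
  obtain ⟨c, q1, rfl⟩ := C.lift_odd (by decide) s1 p1
  obtain ⟨c', q2, rfl⟩ := C.lift_odd (by decide) s2 p2
  obtain ⟨g, rfl⟩ := C.lift s3
  obtain ⟨g', rfl⟩ := C.lift s4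
  obtain ⟨h, rfl⟩ := C.lift s5
  obtain ⟨h', rfl⟩ := C.lift s6
  rw [← fy] at e7 e8 e9 e10
  rw [← fx] at e9 e11
  have pw : ∀ {u : Γ} (n : ℕ), u ^ 5 = 1 → (u ^ n) ^ 5 = 1 := fun n h => by rw [← pow_mul, mul_comm, pow_mul, h, one_pow]
  have c1 : Commute c c' := C.semi (by decide) q1 q1 e1
  have nB : (ρ c' - 1) * (ρ c - 1) ≠ 0 := fun e => by
    have a1 := mem_stab.2 e
    have a2 : y ∈ stab ρ (ρ c - 1) := by
      rw [← one_mul y, ← hy, ← pow_succ, C.pow_eq (y' := c' * (h' * c'⁻¹ * h'⁻¹)) (by simpa using e10.symm) (by decide)]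
      exact pow_mem (mul_mem a1 (conj_stab (inv_mem a1) (C.semi (by decide) q1 q1 e6).symm)) _
    have a3 := stab_symm (C.semi (by decide) q1 q1 e7).symm a2
    refine hB (stab_symm (C.semi (by decide) hx hx e9) ?_)
    rw [← one_mul x, ← hx, ← pow_succ, C.pow_eq (y' := c * (h * c⁻¹ * h⁻¹)) (by simpa using e11.symm) (by decide)]
    exact pow_mem (mul_mem a3 (conj_stab (inv_mem a3) (C.semi (by decide) hy hy e8).symm)) _
  have r1 : ρ c ^ 5 = 1 := by rw [← map_pow, q1, map_one]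
  have r2 : ρ c' ^ 5 = 1 := by rw [← map_pow, q2, map_one]
  have d1 : Commute (ρ c) (ρ c' - 1) := (c1.map ρ).sub_right (Commute.one_right _)
  have d2 : Commute (ρ c') (ρ c - 1) := (c1.symm.map ρ).sub_right (Commute.one_right _)
  obtain ⟨w, a, b, h0, h1, h2⟩ := Ev.ex ρ c1 _ nB (d1.mul_right (by simp)) (Commute.mul_right (by simp) d2)
  have b1 := ne_one_of r2 h5 h0 h2
  have d3 := (d1.sub_left (Commute.one_left _)).eq
  obtain ⟨e, i1, i0, i2, i3, i4⟩ := exps (root_of r1 h0 h1) (ne_one_of r1 h5 (w := (ρ c' - 1) w) (d3 ▸ h0 :) (d3 ▸ h1 :))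
  obtain ⟨b, rfl⟩ := i4 b (root_of r2 h0 h2)
  have k1 : ∀ n, Ev ρ c c' (e (t^[n] (1, b)).1) (e (t^[n] (1, b)).2) := fun n => by
    induction n with
    | zero => exact ⟨_, h0, i2 ▸ h1, h2⟩
    | succ n ih =>
      obtain ⟨w, h0, h1, h2⟩ := ih
      rw [Function.iterate_succ_apply']
      exact ⟨_, ne_zero_of ρ g' h0, i3 _ _ ▸ eig_step ρ h1 (C.semi (by decide) (pw 4 q1) q1 (by rw [map_pow, e4])),
        by simpa using eig_step ρ h2 (C.semi (by decide) (pw 1 q2) q2 (by rw [map_pow, e5]))⟩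
  have k2 : ∀ m n, Ev ρ c c' (e (s^[n] (t^[m] (1, b))).1) (e (s^[n] (t^[m] (1, b))).2) := fun m n => by
    induction n with
    | zero => exact k1 m
    | succ n ih =>
      obtain ⟨w, h0, h1, h2⟩ := ih
      rw [Function.iterate_succ_apply']
      exact ⟨_, ne_zero_of ρ g h0, i3 _ _ ▸ eig_step ρ h2 (C.semi (by decide) (pw 3 q2) q1 (by rw [map_pow, e2])),
        by simpa using eig_step ρ h1 (C.semi (by decide) (pw 1 q1) q2 (by rw [map_pow, e3]))⟩
  simpa using Ev.card i1 _ (hs b fun d => b1 (d ▸ i0)) fun j => k2 j.2 j.1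

end H4.Gs.As
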