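import Cfsg.Agent.H4.As2

/-! Alternating sections of linear groups, 3: if a 3-cycle acts nontrivially on `[V, x]` for a disjoint 3-cycle `x`, the degree is at least twice
a bound for three points fewer (`As.half`). -/

set_option autoImplicit false
set_option linter.unusedSectionVars false

namespace H4.Gs.As
open Module Equiv Equiv.Perm H11

variable {Γ Ω : Type} [Group Γ] [Fintype Ω] [DecidableEq Ω] {f : Γ →* Perm Ω}
variable {K V : Type} [Field K] [AddCommGroup V] [Module K V]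

theorem normal_alt (hr : f.range = alternatingGroup Ω) (h5 : 5 ≤ Fintype.card Ω) (N : Subgroup Γ) [hN : N.Normal] :
    N ≤ f.ker ∨ N.map f = alternatingGroup Ω := by
  let f' := f.codRestrict (alternatingGroup Ω) fun g => hr.le ⟨g, rfl⟩
  have hs : Function.Surjective f' := fun σ => let ⟨g, hg⟩ := hr.ge σ.2; ⟨g, Subtype.ext hg⟩
  have := hN.map f' hs
  rcases alternatingGroup.normal_subgroup_eq_bot_or_eq_top (N := N.map f') (by simpa using h5) with h | h
  · exact .inl fun g hg => congrArg Subtype.val (h.le ⟨g, hg, rfl⟩)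
  · refine .inr (le_antisymm ((Subgroup.map_le_range _ _).trans hr.le) fun σ hσ => ?_)
    obtain ⟨g, hg, e⟩ := h.ge (Subgroup.mem_top ⟨σ, hσ⟩)
    exact ⟨g, hg, congrArg Subtype.val e⟩

theorem Cov.mem_of_map (C : Cov f) {N : Subgroup Γ} (h : N.map f = alternatingGroup Ω) {y : Γ} (hy : y ^ 3 = 1) : y ∈ N := by
  obtain ⟨n, hn, e⟩ := h.ge (C.range.le ⟨y, rfl⟩)
  rw [← one_mul y, ← hy, ← pow_succ, ← C.pow_eq e (by decide)]
  exact pow_mem hn _

theorem mem_ker_sub {σ : Γ →* End K V} {U : Submodule K V} (hU : ∀ g, U ≤ U.comap (σ g)) {g : Γ} :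
    g ∈ MonoidHom.ker (Representation.subrepresentation σ U hU) ↔ ∀ u ∈ U, σ g u = u :=
  ⟨fun h u hu => congrArg Subtype.val (LinearMap.congr_fun h ⟨u, hu⟩), fun h => LinearMap.ext fun u => Subtype.ext (h u u.2)⟩

theorem Cov.inv_bd [FiniteDimensional K V] (C : Cov f) (h5 : 5 ≤ Fintype.card Ω) {m : ℕ} (hb : Bd K f m) (σ : Γ →* End K V)
    (U : Submodule K V) (hU : ∀ g, U ≤ U.comap (σ g)) {y : Γ} (hy : y ^ 3 = 1) (hn : ¬ ∀ u ∈ U, σ y u = u) : m ≤ finrank K U :=
  hb U (Representation.subrepresentation σ U hU) ((normal_alt C.range h5 _).resolve_right fun h =>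
    hn ((mem_ker_sub hU).1 (C.mem_of_map h hy)))

theorem ext_emb {k m : ℕ} (p : Fin k ↪ Ω) (h : k ≤ m) (h' : m ≤ Fintype.card Ω) : ∃ e : Fin m ↪ Ω, ∀ i, e (Fin.castLE h i) = p i := by
  obtain ⟨e⟩ : Nonempty (Fin m ↪ Ω) := Function.Embedding.nonempty_of_card_le (by simpa)
  obtain ⟨σ, hσ⟩ := Perm.exists_extending_pair (e ∘ Fin.castLE h) p (e.injective.comp (Fin.castLE_injective h)) p.injective
  exact ⟨e.trans σ.toEmbedding, hσ⟩

theorem half [IsAlgClosed K] [FiniteDimensional K V] (C : Cov f) (ρ : Γ →* End K V) (e : Fin 8 ↪ Ω) {x y : Γ} (hx : x ^ 3 = 1) (hy : y ^ 3 = 1)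
    (fx : f x = cy (e 0) (e 1) (e 2)) (fy : f y = cy (e 3) (e 4) (e 5)) (hB : y ∉ stab ρ (ρ x - 1)) {m : ℕ}
    (hb : ∀ (Ω' : Type) [Fintype Ω'] [DecidableEq Ω'], Fintype.card Ω' + 3 = Fintype.card Ω → ∀ (G : Subgroup Γ) (f₁ : G →* Perm Ω'),
      G ≠ ⊤ → Cov f₁ → Bd K f₁ m) : 2 * m ≤ finrank K V := by
  have ne : ∀ i j : Fin 8, i ≠ j → e i ≠ e j := fun i j h => e.injective.ne h
  let S : Finset Ω := {e 0, e 1, e 2}
  have hS : S.card = 3 := Finset.card_eq_three.2 ⟨_, _, _, ne _ _ (by decide), ne _ _ (by decide), ne _ _ (by decide), rfl⟩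
  have h8 : 8 ≤ Fintype.card Ω := by simpa using Fintype.card_le_of_embedding e
  have hc : Fintype.card {t // t ∈ Sᶜ} + 3 = Fintype.card Ω := by rw [Fintype.card_coe, Finset.card_compl, hS]; omega
  obtain ⟨G, f₁, C₁, h1, h2⟩ := C.restrict (Function.Embedding.subtype (· ∈ Sᶜ))
  have fix : ∀ g : G, ∀ t ∈ S, f g t = t := fun g t ht => by
    rw [h1, ι_fix]; rintro ⟨u, rfl⟩; exact Finset.mem_compl.1 u.2 ht
  have cm : ∀ g : G, Commute (ρ g) (ρ x) := fun g => (Commute.symm (C.semi (by decide) hx hx (by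
    rw [fx, mul_inv_eq_iff_eq_mul.1 (conj_cy (fix g _ (by simp [S])) (fix g _ (by simp [S])) _), fix g _ (by simp [S])]))).map ρ
  have hS' : ∀ i : Fin 8, 3 ≤ i → e i ∈ Sᶜ := fun i hi => by
    simp only [S, Finset.mem_compl, Finset.mem_insert, Finset.mem_singleton, e.injective.eq_iff]; omega
  have yG : y ∈ G := h2 y (cy ⟨_, hS' 3 (by decide)⟩ ⟨_, hS' 4 (by decide)⟩ ⟨_, hS' 5 (by decide)⟩)
    (sign_cy (fun h => ne _ _ (by decide) (congrArg Subtype.val h)) (fun h => ne _ _ (by decide) (congrArg Subtype.val h)))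
    (by rw [ι_cy, fy]; rfl)
  have hb' := hb _ hc G f₁ (fun h => by
    have := fix ⟨x, h ▸ Subgroup.mem_top x⟩ (e 2) (by simp [S])
    rw [fx, cy_apply _ _ _ _ (ne _ _ (by decide)) (ne _ _ (by decide)) (ne _ _ (by decide)), if_pos rfl] at this
    exact ne _ _ (by decide) this) C₁
  have hy' : (⟨y, yG⟩ : G) ^ 3 = 1 := Subtype.ext hy
  have key := fun U hU hn => C₁.inv_bd (by omega) hb' (ρ.comp G.subtype) U hU hy' hn
  have r1 : ρ x ^ 3 = 1 := by rw [← map_pow, hx, map_one]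
  have r2 : ρ y ^ 3 = 1 := by rw [← map_pow, hy, map_one]
  have cA : ∀ g : G, Commute (ρ g) (ρ x - 1) := fun g => (cm g).sub_right (Commute.one_right _)
  by_cases h3 : ((3 : ℕ) : K) = 0
  · have A3 : (ρ x - 1) * ((ρ x - 1) * (ρ x - 1)) = 0 := by
      have : ((3 : ℕ) : End K V) = 0 := by rw [← map_natCast (algebraMap K (End K V)), h3, map_zero]
      calc _ = ρ x ^ 3 - 1 - ((3 : ℕ) : End K V) * (ρ x ^ 2 - ρ x) := by push_cast; noncomm_ring
        _ = 0 := by rw [r1, this]; simp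
    generalize ρ x - 1 = A at *
    have cA' : ∀ (g : G) w, ρ g (A w) = A (ρ g w) := fun g w => LinearMap.congr_fun (cA g).eq w
    have i1 : ∀ g : G, LinearMap.ker A ≤ (LinearMap.ker A).comap ((ρ.comp G.subtype) g) := fun g u (hu : A u = 0) =>
      show A (ρ g u) = 0 by rw [← cA', hu, map_zero]
    have a1 := key (LinearMap.range A) (by rintro g _ ⟨w, rfl⟩; exact ⟨_, (cA' g w).symm⟩) fun h => hB (LinearMap.ext fun w => h _ ⟨w, rfl⟩)
    have a2 := key (LinearMap.ker A) i1 fun h => by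
      have hN := (normal_alt C₁.range (by omega) _).resolve_left fun d => by
        have := congrArg (· (e 5)) ((h1 _).trans (congrArg _ (d ((mem_ker_sub i1).2 h))))
        simp only [fy, cy_apply _ _ _ _ (ne 3 4 (by decide)) (ne 5 3 (by decide)) (ne 5 4 (by decide)), if_pos, map_one, one_apply] at this
        exact ne _ _ (by decide) this
      generalize hM : MonoidHom.ker (Representation.subrepresentation _ _ i1) = N at hN
      have hN' : ∀ g ∈ N, ∀ u, A u = 0 → ρ g u = u := fun g hg => (mem_ker_sub i1).1 (hM ▸ hg)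
      have k1 : ∀ g ∈ N, ∀ h ∈ N, ∀ w, ρ g (ρ h (A w)) = ρ g (A w) + ρ h (A w) - A w := fun g hg h hh w => by
        have := hN' g hg (ρ h (A w) - A w) (by rw [map_sub, ← cA', hN' h hh (A (A w)) (LinearMap.congr_fun A3 w), sub_self])
        rw [map_sub, sub_eq_iff_eq_add] at this
        rw [this]; abel
      have k2 : ⁅N, N⁆ ≤ (stab ρ A).comap G.subtype := Subgroup.commutator_le.2 fun g hg h hh => LinearMap.ext fun w => by
        have : ρ (g⁻¹ : G) (ρ (h⁻¹ : G) (A w)) = ρ (h⁻¹ : G) (ρ (g⁻¹ : G) (A w)) := by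
          rw [k1 _ (inv_mem hg) _ (inv_mem hh), k1 _ (inv_mem hh) _ (inv_mem hg), add_comm]
        simp only [commutatorElement_def, map_mul, End.mul_apply, Subgroup.coe_subtype, this]
        simp only [← End.mul_apply, ← mul_assoc, ← map_mul]
        simp
      exact hB (k2 (C₁.mem_of_map (by rw [Subgroup.map_commutator, hN, commutator_alternatingGroup_eq_self (by simp; omega)]) hy'))
    have := LinearMap.finrank_range_add_finrank_ker A
    omega
  · have c1 : Commute x y := C.semi (by decide) hx hx (by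
      rw [fx, fy, ← ι_cy, ← ι_cy, ← map_mul, ← map_mul]; congr 1; decide)
    have d1 : Commute (ρ x) (ρ y - 1) := (c1.map ρ).sub_right (Commute.one_right _)
    obtain ⟨w, a, b, h0, e1, e2⟩ := Ev.ex ρ c1 _ (mt mem_stab.2 hB) (d1.mul_right (by simp)) (Commute.mul_right (by simp) (cA ⟨y, yG⟩))
    have b1 := ne_one_of r2 h3 h0 e2
    have d3 := (d1.sub_left (Commute.one_left _)).eq
    have a1 := ne_one_of r1 h3 (w := (ρ y - 1) w) (d3 ▸ h0 :) (d3 ▸ e1 :)
    have a3 := root_of r1 h0 e1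
    obtain ⟨s, hs⟩ := C.lift (σ := viaEmbeddingHom e (swap 0 1 * swap 6 7)) (by rw [ι_sign]; decide)
    have s1 := eig_step ρ e1 (C.semi (g := s) (y := x ^ 2) (by decide) (by rw [← pow_mul, mul_comm, pow_mul, hx, one_pow]) hx (by
      rw [map_pow, fx, hs, ← ι_cy, ← map_pow, ← map_mul, ← map_mul]; congr 1; decide))
    have s2 := eig_step ρ e2 (C.semi (g := s) (y := y ^ 1) (by decide) (by rwa [pow_one]) hy (by
      rw [map_pow, fy, hs, ← ι_cy, ← map_pow, ← map_mul, ← map_mul]; congr 1; decide))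
    have k : ∀ (c : K) (v : V), v ≠ 0 → ρ x v = c • v → ρ y v = b • v → m ≤ finrank K (End.eigenspace (ρ x) c) := fun c v h0 h1 h2 =>
      key _ (fun g u hu => End.mem_eigenspace_iff.2 (by
        rw [← End.mul_apply, MonoidHom.comp_apply, Subgroup.coe_subtype, ← (cm g).eq, End.mul_apply, End.mem_eigenspace_iff.1 hu, map_smul]))
        fun h => b1 (smul_left_injective K h0 (h2.symm.trans ((h v (End.mem_eigenspace_iff.2 h1)).trans (one_smul K v).symm)))
    have k1 := k _ _ h0 e1 e2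
    have k2 := k _ _ (ne_zero_of ρ s h0) s1 (by simpa using s2)
    have := Submodule.finrank_add_finrank_le_of_disjoint ((End.eigenspaces_iSupIndep (ρ x)).pairwiseDisjoint (show a ≠ a ^ 2 from fun h => a1 (by
      rw [← a3, pow_succ, ← h, ← pow_two, ← h])))
    exact (two_mul m).le.trans ((add_le_add k1 k2).trans this)

end H4.Gs.As
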