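import Cfsg.Agent.H4.As3

/-! Alternating sections of linear groups, 4: if disjoint 3-cycles `x`, `y` have `[V, x, y] = 0` then `V` contains root vectors of type `A`
(`As.caseA`). -/

set_option autoImplicit false
set_option linter.unusedSectionVars false

namespace H4.Gs.As
open Module Equiv Equiv.Perm H11

variable {Γ Ω : Type} [Group Γ] [Fintype Ω] [DecidableEq Ω] {f : Γ →* Perm Ω}
variable {K V : Type} [Field K] [AddCommGroup V] [Module K V]

theorem fresh3 (l : List Ω) (h : l.length + 3 ≤ Fintype.card Ω) : ∃ a b c, a ∉ l ∧ b ∉ l ∧ c ∉ l ∧ a ≠ b ∧ a ≠ c ∧ b ≠ c := by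
  have : 2 < l.toFinsetᶜ.card := by have := l.toFinset_card_le; rw [Finset.card_compl]; omega
  simpa using Finset.two_lt_card.1 this

theorem pts (s : Finset Ω) {α β : Ω} (h : α ≠ β) (ha : α ∉ s) (hb : β ∉ s) :
    ∃ p k, Pts α β p k ∧ (∀ i < k, p i ∈ s) ∧ ∀ t ∈ s, ∃ i < k, p i = t := by
  have m : ∀ i < s.toList.length, s.toList.getD i α ∈ s := fun i hi => by
    rw [List.getD_eq_getElem _ _ hi]; exact Finset.mem_toList.1 (List.getElem_mem hi)
  refine ⟨fun i => s.toList.getD i α, s.toList.length, ⟨h, fun i hi e => ha (e ▸ m i hi), fun i hi e => hb (e ▸ m i hi), fun i hi j hj e => ?_⟩,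
    m, fun t ht => ?_⟩
  · rwa [List.getD_eq_getElem _ _ hi, List.getD_eq_getElem _ _ hj, s.nodup_toList.getElem_inj_iff] at e
  · obtain ⟨i, hi, e⟩ := List.getElem_of_mem (Finset.mem_toList.2 ht)
    exact ⟨i, hi, (List.getD_eq_getElem _ _ hi).trans e⟩

theorem root [FiniteDimensional K V] (p : ℕ) [CharP K p] (h5 : 5 ≤ Fintype.card Ω) (F : Ω → Ω → V) (ne : ∀ a b, a ≠ b → F a b ≠ 0)
    (act : ∀ σ : Perm Ω, sign σ = 1 → ∃ T : End K V, ∀ a b, a ≠ b → T (F a b) = F (σ a) (σ b))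
    (R : ∀ a b c, a ≠ b → a ≠ c → b ≠ c → F a b + F b c + F c a = 0) (anti : ∀ a b, a ≠ b → F a b + F b a = 0) :
    Fintype.card Ω - 1 - (if p ∣ Fintype.card Ω then 1 else 0) ≤ finrank K V := by
  obtain ⟨o⟩ : Nonempty Ω := Fintype.card_pos_iff.1 (by omega)
  obtain ⟨G, G0, hG⟩ : ∃ G : Ω → V, G o = 0 ∧ ∀ a b, a ≠ b → F a b = G b - G a := by
    refine ⟨fun t => if t = o then 0 else F o t, by simp, fun a b h => ?_⟩
    by_cases ha : a = o
    · subst ha; simp [h.symm]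
    by_cases hb : b = o
    · subst hb; simp [h, eq_neg_iff_add_eq_zero, anti a b h]
    simp only [ha, hb, if_false]
    rw [← sub_eq_zero, ← sub_eq_zero.2 ((R o a b (Ne.symm ha) (Ne.symm hb) h).trans (anti b o hb).symm)]
    abel
  let Φ := (Fintype.linearCombination K G).prod (Fintype.linearCombination K fun _ : Ω => (1 : K))
  have hΦ : ∀ c, c ∈ LinearMap.ker Φ ↔ ∑ t, c t • G t = 0 ∧ ∑ t, c t = 0 := fun c => by
    simp [Φ, Fintype.linearCombination_apply]
  have inv : ∀ σ : Perm Ω, sign σ = 1 → ∀ c ∈ LinearMap.ker Φ, c ∘ σ ∈ LinearMap.ker Φ := fun σ hσ c hc => by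
    obtain ⟨T, hT⟩ := act σ⁻¹ (by simpa)
    have h1 : ∀ t, T (G t) = G (σ⁻¹ t) - G (σ⁻¹ o) := fun t => by
      by_cases ht : t = o
      · simp [ht, G0]
      · rw [← hG _ _ ((σ⁻¹).injective.ne (Ne.symm ht)), ← hT _ _ (Ne.symm ht), hG _ _ (Ne.symm ht), G0, sub_zero]
    obtain ⟨h2, h3⟩ := (hΦ c).1 hc
    have h4 := congrArg T h2
    simp only [map_sum, map_smul, h1, smul_sub, Finset.sum_sub_distrib, ← Finset.sum_smul, h3, zero_smul, sub_zero, map_zero] at h4
    refine (hΦ _).2 ⟨?_, (Equiv.sum_comp σ c).trans h3⟩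
    rw [← h4, ← Equiv.sum_comp σ fun t => c t • G (σ⁻¹ t)]; simp
  have con : ∀ c ∈ LinearMap.ker Φ, ∀ i j, c i = c j := fun c hc i j => by
    by_contra hij
    have h1 : i ≠ j := fun e => hij (e ▸ rfl)
    obtain ⟨l, a, a', k1, k2, k3, k4, k5, k6⟩ := fresh3 [i, j] (by simpa)
    simp only [List.mem_cons, List.not_mem_nil, or_false, not_or] at k1 k2 k3
    have a1 := sub_mem hc (inv (cy i j l) (sign_cy h1 k1.1) c hc)
    have a2 := sub_mem a1 (inv (cy j a a') (sign_cy (Ne.symm k2.2) k3.2) _ a1)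
    have a3 : c - c ∘ cy i j l - (c - c ∘ cy i j l) ∘ cy j a a' = (c j - c i) • (Pi.single j 1 - Pi.single a 1) := by
      funext t
      simp only [Pi.sub_apply, Function.comp, cy_apply _ _ _ _ h1 k1.1 k1.2, cy_apply _ _ _ _ (Ne.symm k2.2) k3.2 k6.symm, Pi.smul_apply,
        Pi.single_apply, smul_eq_mul]
      by_cases t1 : t = j
      · subst t1; simp [k3.1, k3.2, k5.symm, Ne.symm k1.2, Ne.symm k2.2, Ne.symm k3.2]
      by_cases t2 : t = a
      · subst t2; simp [Ne.symm k1.2, k2.1, k2.2, k4.symm, k6]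
      by_cases t3 : t = a'
      · subst t3; simp [k2.1, k2.2, k3.1, k3.2, k4.symm, k5.symm, k6.symm]
      simp [t1, t2, t3]
    have a4 : Fintype.linearCombination K G _ = 0 := congrArg Prod.fst (LinearMap.mem_ker.1 (a3 ▸ a2))
    simp only [map_smul, map_sub, Fintype.linearCombination_apply_single, one_smul, smul_eq_zero, sub_eq_zero] at a4
    exact ne a j k2.2 (by rw [hG _ _ k2.2, a4.resolve_left (Ne.symm hij), sub_self])
  have e1 := LinearMap.finrank_range_add_finrank_ker Φ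
  have e2 := (LinearMap.range Φ).finrank_le
  rw [finrank_prod, finrank_self] at e2
  rw [finrank_fintype_fun_eq_card] at e1
  split_ifs with hp
  · have : LinearMap.ker Φ ≤ K ∙ (1 : Ω → K) := fun c hc => Submodule.mem_span_singleton.2 ⟨c o, funext fun t => by simp [con c hc o t]⟩
    have := (Submodule.finrank_mono this).trans (finrank_span_le_card _)
    simp only [Set.toFinset_singleton, Finset.card_singleton] at this
    omega
  · have : LinearMap.ker Φ = ⊥ := eq_bot_iff.2 fun c hc => funext fun t => by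
      have := ((hΦ c).1 hc).2
      simp only [fun i => con c hc i t, Finset.sum_const, Finset.card_univ, nsmul_eq_mul, mul_eq_zero, CharP.cast_eq_zero_iff K p, hp, false_or] at this
      exact this
    rw [this, finrank_bot] at e1
    omega

theorem conj_cy' (σ : Perm Ω) (a b c : Ω) : σ * cy a b c * σ⁻¹ = cy (σ a) (σ b) (σ c) := by
  rw [cy, ← conj_mul, ← swap_apply_apply, ← swap_apply_apply, cy]

/-- disjoint 3-cycles `x`, `y` satisfy `[V, x, y] = 0` -/
def CaseA (f : Γ →* Perm Ω) (ρ : Γ →* End K V) : Prop := ∀ a b c a' b' c' : Ω, [a, b, c, a', b', c'].Nodup → ∀ x y, x ^ 3 = 1 → y ^ 3 = 1 →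
  f x = cy a b c → f y = cy a' b' c' → y ∈ stab ρ (ρ x - 1)

theorem cy_ne_one {a b c : Ω} (h1 : a ≠ b) (h2 : c ≠ a) (h3 : c ≠ b) : cy a b c ≠ 1 := (H16.cy_three h1 h2 h3).ne_one

theorem CaseA.inj {ρ : Γ →* End K V} (A : CaseA f ρ) (C : Cov f) (h7 : 7 ≤ Fintype.card Ω) (hρ : Function.Injective ρ)
    (sc : ∀ k, f k = 1 → ∃ c : K, ρ k = c • 1) (MIN : ∀ M : Subgroup Γ, M.map f = alternatingGroup Ω → M = ⊤) : Function.Injective f := by
  obtain ⟨α, β, -, -, -, -, hab, -⟩ := fresh3 ([] : List Ω) (by simp; omega)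
  obtain ⟨p, k, P, -, all⟩ := pts {α, β}ᶜ hab (by simp) (by simp)
  choose! y hy hf using fun i hi => C.lift3 hab (P.a i hi) (P.b i hi)
  have hC : Car y k := by
    refine ⟨fun i hi => by rw [inv_eq_iff_mul_eq_one, ← pow_three, hy i hi], fun i hi j hj hij => ?_⟩
    obtain ⟨a, b, c, k1, k2, k3, k4, k5, k6⟩ := fresh3 [α, β, p i, p j] (by simpa)
    obtain ⟨x, hx, fx⟩ := C.lift3 k4 k5.symm k6.symm
    have k7 : ∀ l < k, p l ∈ [α, β, p i, p j] → y l ∈ stab ρ (ρ x - 1) := fun l hl h => A a b c α β (p l) (by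
      have := P.a l hl; have := P.b l hl; grind) x _ hx (hy l hl) fx (hf l hl)
    have k8 := pow_mem (mul_mem (k7 i hi (by simp)) (k7 j hj (by simp))) 2
    obtain ⟨s, hs⟩ := sc ((y i * y j) ^ 2) (by rw [map_pow, map_mul, hf i hi, hf j hj, sq, ← mul_assoc, P.car.c2 i hi j hj hij, inv_mul_cancel])
    have k9 : ρ x - 1 ≠ 0 := fun e => cy_ne_one k4 k5.symm k6.symm (by rw [← fx, hρ ((sub_eq_zero.1 e).trans (map_one ρ).symm), map_one])
    change _ = _ at k8
    rw [hs, smul_mul_assoc, one_mul] at k8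
    rw [smul_left_injective K k9 (k8.trans (one_smul K _).symm), one_smul, ← map_one ρ] at hs
    rw [eq_inv_iff_mul_eq_one, mul_assoc, ← sq, hρ hs]
  have hW : W y k = ⊤ := MIN _ (by
    rw [map_W f hf]
    exact le_antisymm (fun σ hσ => sign_W P hσ) fun σ hσ => mem_W_cy P hσ fun t h1 h2 h3 =>
      let ⟨i, hi, e⟩ := all t (by simp [h1, h2]); absurd e (h3 i hi))
  exact (injective_iff_map_eq_one f).2 fun w hw => hC.inj P f hf (hW ▸ Subgroup.mem_top w) hw

theorem perm7 : (cy 3 4 2 * (cy 3 5 6 * cy 3 5 4) * cy 3 4 2 : Perm (Fin 7)) = cy 3 5 6 * cy 3 5 4 ∧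
    (cy 3 5 6 * cy 3 5 4 : Perm (Fin 7)) = cy 3 5 4 ^ 2 * cy 3 5 6 ^ 2 ∧ (cy 3 5 4 * cy 3 5 6 : Perm (Fin 7)) = cy 3 5 6 ^ 2 * cy 3 5 4 ^ 2 ∧
    (cy 3 5 6 * cy 3 5 4 : Perm (Fin 7)) ≠ 1 := by decide +kernel

theorem CaseA.vec [FiniteDimensional K V] {ρ : Γ →* End K V} (A : CaseA f ρ) (C : Cov f) (hρ : Function.Injective ρ) (hf : Function.Injective f)
    (e : Fin 7 ↪ Ω) {x d : Γ} (hx : x ^ 3 = 1) (hd : d ^ 3 = 1) (fx : f x = cy (e 0) (e 1) (e 2)) (fd : f d = cy (e 3) (e 4) (e 2)) :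
    ∃ w, (ρ x - 1) w ≠ 0 ∧ (ρ d - 1) ((ρ x - 1) w) = 0 := by
  by_contra! h
  have ne : ∀ i j : Fin 7, i ≠ j → e i ≠ e j := fun i j h => e.injective.ne h
  have h7 : 7 ≤ Fintype.card Ω := by simpa using Fintype.card_le_of_embedding e
  have cj : ∀ a b c : Fin 7, Function.Injective ![a, b, c] → ∀ y, f y = cy (e a) (e b) (e c) → ∃ g, g * d * g⁻¹ = y := fun a b c h y fy => by
    obtain ⟨g, hg⟩ := C.trans (e ∘ ![3, 4, 2]) (e ∘ ![a, b, c]) (e.injective.comp (by decide)) (e.injective.comp h) (by simp; omega)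
    exact ⟨g, hf (by rw [map_mul, map_mul, map_inv, fd, fy, conj_cy']; exact congr(cy $(hg 0) $(hg 1) $(hg 2)))⟩
  have cj' : ∀ g, ρ (g * d * g⁻¹) - 1 = ρ g * ((ρ d - 1) * ρ g⁻¹) := fun g => by
    rw [sub_mul, mul_sub, one_mul, ← map_mul, ← map_mul, ← map_mul, mul_inv_cancel, map_one, mul_assoc]
  obtain ⟨y, hy, fy⟩ := C.lift3 (ne 3 5 (by decide)) (ne 6 3 (by decide)) (ne 6 5 (by decide))
  obtain ⟨z, hz, fz⟩ := C.lift3 (ne 3 5 (by decide)) (ne 4 3 (by decide)) (ne 4 5 (by decide))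
  have a1 : ρ (y * z) * (ρ x - 1) = ρ x - 1 := mul_mem (s := stab ρ _) (A _ _ _ _ _ _ (by simp [e.injective.eq_iff]) _ _ hx hy fx fy)
    (A _ _ _ _ _ _ (by simp [e.injective.eq_iff]) _ _ hx hz fx fz)
  have a2 : d * (y * z) * d = y * z := hf (by simpa only [map_mul, fd, fy, fz, ι_cy] using congrArg (viaEmbeddingHom e) perm7.1)
  have a3 : LinearMap.range ((ρ d - 1) * (ρ x - 1)) = LinearMap.range (ρ d - 1) := by
    refine Submodule.eq_of_le_of_finrank_le (LinearMap.range_comp_le_range _ _) ?_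
    obtain ⟨g, hg⟩ := cj 0 1 2 (by decide) x fx
    have e1 := LinearMap.finrank_range_add_finrank_ker ((ρ d - 1) * (ρ x - 1))
    have e2 := LinearMap.finrank_range_add_finrank_ker (ρ x - 1)
    have e3 : LinearMap.ker ((ρ d - 1) * (ρ x - 1)) ≤ LinearMap.ker (ρ x - 1) := fun w hw => by_contra fun h' => h w h' hw
    have e4 := Submodule.finrank_mono e3
    have e5 : ρ d - 1 = ρ g⁻¹ * ((ρ x - 1) * ρ g) := by
      rw [← hg, cj', ← mul_assoc, ← mul_assoc, ← map_mul, inv_mul_cancel, map_one, one_mul, mul_assoc, ← map_mul, inv_mul_cancel, map_one, mul_one]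
    have e6 : finrank K (LinearMap.range (ρ d - 1)) ≤ finrank K (LinearMap.range (ρ x - 1)) := by
      rw [e5, End.mul_eq_comp, LinearMap.range_comp]
      exact (Submodule.finrank_map_le _ _).trans (Submodule.finrank_mono (LinearMap.range_comp_le_range _ _))
    omega
  have a2' : ρ d * ρ (y * z) * ρ d = ρ (y * z) := by rw [← map_mul, ← map_mul, a2]
  have r : ∀ {u}, u ^ 3 = 1 → ρ u ^ 3 = 1 := fun h => by rw [← map_pow, h, map_one]
  have a4 : ρ d * ρ (y * z) * (ρ d - 1) = -(ρ d - 1) := LinearMap.ext fun w => by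
    obtain ⟨w', hw⟩ := a3.ge ⟨w, rfl⟩
    have : ρ d * ρ (y * z) * ((ρ d - 1) * (ρ x - 1)) = -((ρ d - 1) * (ρ x - 1)) := by
      linear_combination (norm := noncomm_ring) a2' * (ρ x - 1) + a1 - ρ d * a1
    rw [End.mul_apply, ← hw, ← End.mul_apply, this, LinearMap.neg_apply, LinearMap.neg_apply, hw]
  have a5 : (ρ d - 1) * (ρ d - 1) = 0 := by
    linear_combination (norm := noncomm_ring) ρ d * ρ d * a2' * (ρ d - 1) + ρ d * a4 + r hd * (ρ d - 1) - ρ d * ρ d * a4 * ρ d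
  have a6 : ∀ a b c : Fin 7, Function.Injective ![a, b, c] → ∀ y, f y = cy (e a) (e b) (e c) → (ρ y - 1) * (ρ y - 1) = 0 := fun a b c h y fy => by
    obtain ⟨g, rfl⟩ := cj a b c h y fy
    rw [cj', mul_assoc, mul_assoc, ← mul_assoc (ρ g⁻¹), ← map_mul, inv_mul_cancel, map_one, one_mul, ← mul_assoc (ρ d - 1), a5]; simp
  have b1 := a6 3 5 6 (by decide) y fy
  have b2 := a6 3 5 4 (by decide) z fz
  have b3 : ρ y * ρ z = ρ z ^ 2 * ρ y ^ 2 := by
    simp only [← map_pow, ← map_mul]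
    exact congrArg ρ (hf (by simpa only [map_mul, map_pow, fy, fz, ι_cy] using congrArg (viaEmbeddingHom e) perm7.2.1))
  have b4 : ρ z * ρ y = ρ y ^ 2 * ρ z ^ 2 := by
    simp only [← map_pow, ← map_mul]
    exact congrArg ρ (hf (by simpa only [map_mul, map_pow, fy, fz, ι_cy] using congrArg (viaEmbeddingHom e) perm7.2.2.1))
  have r1 := r hy
  have r2 := r hz
  obtain ⟨Y, hY⟩ : ∃ Y, ρ y = 1 + Y := ⟨ρ y - 1, by abel⟩
  obtain ⟨Z, hZ⟩ : ∃ Z, ρ z = 1 + Z := ⟨ρ z - 1, by abel⟩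
  rw [hY, hZ] at b3 b4
  rw [hY] at r1 b1
  rw [hZ] at r2 b2
  rw [add_sub_cancel_left] at b1 b2
  have c1 : 3 * Y = 0 := by linear_combination (norm := noncomm_ring) r1 - 3 * b1 - Y * b1
  have c2 : 3 * Z = 0 := by linear_combination (norm := noncomm_ring) r2 - 3 * b2 - Z * b2
  have c3 : Y + Z = 0 := by
    linear_combination (norm := noncomm_ring) b3 + b4 + b2 * (1 + Y) ^ 2 + (1 + 2 * Z) * b1 + b1 * (1 + Z) ^ 2 + (1 + 2 * Y) * b2
      + c1 + c2 + c1 * Z + c2 * Y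
  have c4 : y * z = 1 := hρ (by
    rw [map_mul, map_one, hY, hZ]; linear_combination (norm := noncomm_ring) (1 + Y) * c3 - b1)
  have := congrArg f c4
  simp only [map_mul, fy, fz, ← ι_cy] at this
  rw [← map_mul, map_one, map_eq_one_iff _ (viaEmbeddingHom_injective e)] at this
  exact perm7.2.2.2 this

/-- the stabilizer of a vector -/
def fixv (ρ : Γ →* End K V) (v : V) : Subgroup Γ where
  carrier := {g | ρ g v = v}
  one_mem' := by simp
  mul_mem' := fun {a b} (ha : _ = _) (hb : _ = _) => show _ = _ by rw [map_mul, End.mul_apply, hb, ha]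
  inv_mem' := fun {a} (ha : _ = _) => show _ = _ by
    nth_rw 1 [← ha]; rw [← End.mul_apply, ← map_mul, inv_mul_cancel, map_one, End.one_apply]

theorem caseA [FiniteDimensional K V] (p : ℕ) [CharP K p] {ρ : Γ →* End K V} (A : CaseA f ρ) (C : Cov f) (h7 : 7 ≤ Fintype.card Ω)
    (hρ : Function.Injective ρ) (hf : Function.Injective f) (NF : ∀ v, (∀ g, ρ g v = v) → v = 0) :
    Fintype.card Ω - 1 - (if p ∣ Fintype.card Ω then 1 else 0) ≤ finrank K V := by
  obtain ⟨e⟩ : Nonempty (Fin 7 ↪ Ω) := Function.Embedding.nonempty_of_card_le (by simpa)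
  have ne : ∀ i j : Fin 7, i ≠ j → e i ≠ e j := fun i j h => e.injective.ne h
  obtain ⟨x, hx, fx⟩ := C.lift3 (ne 0 1 (by decide)) (ne 2 0 (by decide)) (ne 2 1 (by decide))
  obtain ⟨d, hd, fd⟩ := C.lift3 (ne 3 4 (by decide)) (ne 2 3 (by decide)) (ne 2 4 (by decide))
  obtain ⟨w, h0, hw⟩ := A.vec C hρ hf e hx hd fx fd
  have sum : (ρ x - 1) w + ρ x ((ρ x - 1) w) + ρ x (ρ x ((ρ x - 1) w)) = 0 := by
    have : (1 + ρ x + ρ x * ρ x) * (ρ x - 1) = 0 := by
      have r : ρ x ^ 3 = 1 := by rw [← map_pow, hx, map_one]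
      linear_combination (norm := noncomm_ring) r
    exact LinearMap.congr_fun this w
  have hA : ∀ a b c, [e 0, e 1, e 2, a, b, c].Nodup → ∀ y, y ^ 3 = 1 → f y = cy a b c → ρ y ((ρ x - 1) w) = (ρ x - 1) w :=
    fun a b c h y hy fy => LinearMap.congr_fun (A _ _ _ _ _ _ h x y hx hy fx fy) w
  rw [LinearMap.sub_apply (ρ d), sub_eq_zero] at hw
  generalize (ρ x - 1) w = v at *
  have fix : ∀ g, f g (e 0) = e 0 → f g (e 1) = e 1 → ρ g v = v := fun g g0 g1 => by
    obtain ⟨q, k, P, hq, all⟩ := pts {e 0, e 1, e 3, e 4}ᶜ (ne 3 4 (by decide)) (by simp) (by simp)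
    choose! y hy fy using fun i hi => C.lift3 P.ab (P.a i hi) (P.b i hi)
    obtain ⟨g', h1, h2⟩ := (map_W f fy).ge (mem_W_cy P (C.sgn g) fun t t1 t2 t3 => by
      by_contra h
      obtain ⟨i, hi, d⟩ := all t (by simpa [t1, t2] using ⟨fun d => h (d ▸ g0), fun d => h (d ▸ g1)⟩)
      exact t3 i hi d)
    refine W_le (K := fixv ρ v) (fun i hi => ?_) (hf h2 ▸ h1)
    by_cases h : q i = e 2
    · rw [hf (show f (y i) = f d by rw [fy i hi, fd, h])]; exact hw
    · have := hq i hi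
      simp only [Finset.mem_compl, Finset.mem_insert, Finset.mem_singleton, not_or] at this
      exact hA _ _ _ (by simp [e.injective.eq_iff, Ne.symm h, Ne.symm this.1, Ne.symm this.2.1, Ne.symm this.2.2.1, Ne.symm this.2.2.2]) _
        (hy i hi) (fy i hi)
  have tr : ∀ a b c, a ≠ b → a ≠ c → b ≠ c → ∃ g, f g (e 0) = a ∧ f g (e 1) = b ∧ f g (e 2) = c := fun a b c h1 h2 h3 =>
    let ⟨g, hg⟩ := C.trans (e ∘ ![0, 1, 2]) ![a, b, c] (e.injective.comp (by decide)) (List.nodup_ofFn.1 (by simp [h1, h2, h3])) (by simp; omega)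
    ⟨g, hg 0, hg 1, hg 2⟩
  have : ∀ a b, a ≠ b → ∃ g, f g (e 0) = a ∧ f g (e 1) = b := fun a b h => by
    obtain ⟨c, -, -, k1, -⟩ := fresh3 [a, b] (by simp; omega)
    simp only [List.mem_cons, List.not_mem_nil, or_false, not_or] at k1
    exact let ⟨g, h1, h2, _⟩ := tr a b c h (Ne.symm k1.1) (Ne.symm k1.2); ⟨g, h1, h2⟩
  choose! G G0 G1 using this
  obtain ⟨F, hF⟩ : ∃ F : Ω → Ω → V, ∀ a b, F a b = ρ (G a b) v := ⟨_, fun _ _ => rfl⟩
  have F1 : ∀ g, F (f g (e 0)) (f g (e 1)) = ρ g v := fun g => by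
    have h := (f g).injective.ne (ne 0 1 (by decide))
    have := congrArg (ρ g) (fix (g⁻¹ * G (f g (e 0)) (f g (e 1))) (by simp [G0 _ _ h]) (by simp [G1 _ _ h]))
    rwa [← End.mul_apply, ← map_mul, mul_inv_cancel_left, ← hF] at this
  have act : ∀ g a b, a ≠ b → ρ g (F a b) = F (f g a) (f g b) := fun g a b h => by
    rw [hF, ← End.mul_apply, ← map_mul, ← F1, map_mul, mul_apply, mul_apply, G0 _ _ h, G1 _ _ h]
  have R : ∀ a b c, a ≠ b → a ≠ c → b ≠ c → F a b + F b c + F c a = 0 := fun a b c h1 h2 h3 => by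
    obtain ⟨g, rfl, rfl, rfl⟩ := tr a b c h1 h2 h3
    have e0 := F1 1
    have c := fun t => cy_apply _ _ _ t (ne 0 1 (by decide)) (ne 2 0 (by decide)) (ne 2 1 (by decide))
    simp only [map_one, one_apply, End.one_apply] at e0
    rw [← e0, act _ _ _ (ne 0 1 (by decide)), act _ _ _ ((f x).injective.ne (ne 0 1 (by decide))), fx] at sum
    simp [c, e.injective.eq_iff] at sum
    rw [← act _ _ _ (ne 0 1 (by decide)), ← act _ _ _ (ne 1 2 (by decide)), ← act _ _ _ (ne 2 0 (by decide)), ← map_add, ← map_add,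
      add_right_comm, sum, map_zero]
  have s1 : ∀ a b b', a ≠ b → a ≠ b' → F a b + F b a = F a b' + F b' a := fun a b b' h h' => by
    obtain ⟨c, d, -, k1, k2, -, k3, -⟩ := fresh3 [a, b, b'] (by simp; omega)
    simp only [List.mem_cons, List.not_mem_nil, or_false, not_or] at k1 k2
    have k : ∀ b, a ≠ b → c ≠ b → d ≠ b → F a b + F b a = F c d - F c a - F a d := fun b h h1 h2 => by
      linear_combination (norm := abel) R a b c h (Ne.symm k1.1) h1.symm + R b a d h.symm h2.symm (Ne.symm k2.1) - R b c d h1.symm h2.symm k3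
    rw [k b h k1.2.1 k2.2.1, k b' h' k1.2.2 k2.2.2]
  refine root p (by omega) F (fun a b _ => hF a b ▸ ne_zero_of ρ _ h0) (fun σ hσ => ?_) R fun a b h => NF _ fun g => ?_
  · obtain ⟨g, rfl⟩ := C.lift hσ
    exact ⟨ρ g, act g⟩
  · obtain ⟨t, -, -, k1, -⟩ := fresh3 [a, b, f g a, f g b] (by simp; omega)
    simp only [List.mem_cons, List.not_mem_nil, or_false, not_or] at k1
    rw [map_add, act _ _ _ h, act _ _ _ h.symm, s1 _ _ t ((f g).injective.ne h) (Ne.symm k1.2.2.1), add_comm, s1 t _ a k1.2.2.1 k1.1, add_comm,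
      s1 a t b (Ne.symm k1.1) h]

end H4.Gs.As
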