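import Cfsg.Agent.H4.Cor1
import Cfsg.Agent.H27.Gold
import Cfsg.Prelude.Def_QuasithinSetup

/-! `s1847`: if the normalizers of the members of the Alperin-Goldschmidt family lie in the unique maximal `2`-local
subgroup over a Sylow `2`-subgroup, then the group is a Bender group; `ctl_of_ag` (control of fusion). -/

set_option autoImplicit false
set_option linter.unusedSectionVars false
set_option linter.unusedVariables false

namespace H4.Gs
open Subgroup Cfsg H18 H1 H22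
open scoped commutatorElement MatrixGroups

universe u
variable {G : Type u} [Group G] [Finite G] {A B E H K L M P S T U : Subgroup G} {a g s t w x y z : G}

theorem isBenderGroup (h : H19.IsBender G) : IsBenderGroup G := by
  obtain ⟨F, _, _, ⟨n, h1, h2⟩, e⟩ | h | h := h
  · exact .inl ⟨F, _, _, H19.charP_of_card h2, h2 ▸ Nat.pow_le_pow_right two_pos h1, e⟩
  · exact .inr (.inr h)
  · exact .inr (.inl h)

theorem ctl_of_ag (hT : Hall {2} T ⊤) (h0 : T ≠ ⊥) (h : ∀ D ∈ agConjFamily T, N(D) ≤ M) (hx : x ∈ T)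
    (hg : g * x * g⁻¹ ∈ T) : ∃ m ∈ M, g * x * g⁻¹ = m * x * m⁻¹ := by
  have := Fact.mk Nat.prime_two
  have r : ∀ U, H27.Rad 2 T ⊤ U → U ≠ ⊥ := by
    rintro _ hR rfl
    exact h0 (eq_bot_iff.2 ((le_inf le_rfl (by simp)).trans (hR.centric le_top)))
  obtain ⟨m, hm, e⟩ := H27.alperin_rad (isSyl26 hT) (fun A g => ∃ m ∈ M, ∀ a ∈ A, g * a * g⁻¹ = m * a * m⁻¹)
    (fun A B g h _ _ _ ⟨m, hm, e⟩ => ⟨m, hm, fun a ha => e a (h ha)⟩)
    (fun A g k _ _ _ _ _ ⟨m, hm, e⟩ ⟨n, hn, f⟩ => ⟨n * m, mul_mem hn hm, fun a ha => by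
      have := f _ (H26.conj_mem_cj g ha)
      calc _ = k * (g * a * g⁻¹) * k⁻¹ := by group
        _ = n * (m * a * m⁻¹) * n⁻¹ := by rw [this, e a ha]
        _ = _ := by group⟩)
    (fun A g _ _ _ ⟨m, hm, e⟩ => ⟨m⁻¹, inv_mem hm, fun a ha => by
      obtain ⟨b, hb, rfl⟩ := H26.mem_cj'.1 ha
      calc _ = b := by group
        _ = _ := by rw [e b hb]; group⟩)
    (fun A _ c hc => ⟨1, one_mem _, fun a ha => by rw [← mem_C.1 hc.2 a ha]; group⟩)
    (fun U hU hR _ x hx => ⟨x, h U ⟨r U hR, hU.le, ⟨(show H26.IsSyl 2 (T ⊓ N(U)) N(U) by simpa using hU.syl).sylow, rfl⟩,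
      (hR.opp_eq hT.pi.isPGroup hU).ge.trans' le_sup_right, comm_eq_bot_iff.2 (H27.pPrimeCoreOf_le_centralizer
        (hT.pi.isPGroup.to_le hU.le) le_N le_rfl), (hR.opp_eq' hT.pi.isPGroup hU).symm⟩ hx.2, fun _ _ => rfl⟩)
    (zpowers x) g (zpowers_le.2 hx) trivial ((cj_zpowers (g := g)).le.trans (zpowers_le.2 hg))
  exact ⟨m, hm, e x (mem_zpowers x)⟩

theorem s1847 [G0.{u}] [IsSimpleGroup G] (hG : ¬ IsMulCommutative G) (T : Sylow 2 G) (M : Subgroup G)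
    (hM : maxTwoLocalsContaining (T : Subgroup G) = {M})
    (h : ∀ D ∈ agConjFamily (T : Subgroup G), Subgroup.normalizer (D : Set G) ≤ M) :
    (∀ U : Subgroup G, U ≤ M → M ≤ Subgroup.normalizer (U : Set G) → IsPGroup 2 ↥U →
        IsStronglyClosed U (T : Subgroup G)) ∧ IsBenderGroup G := by
  have hT := hall_sylow_top Nat.prime_two T
  generalize (T : Subgroup G) = T at *
  have h0 := ne_bot_of_simple hG hT
  obtain ⟨⟨⟨Q, q2, q0, rfl⟩, -⟩, TM⟩ : M ∈ maxTwoLocalsContaining T := hM ▸ rfl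
  have k : ∀ U : Subgroup G, U ≤ N(Q) → N(Q) ≤ N(U) → IsPGroup 2 ↥U → IsStronglyClosed U T := fun U h1 h2 h3 => by
    have UT : U ≤ T := hT.le_of_norm le_top (piGrp_of_isPGroup Nat.prime_two h3) (.inr (TM.trans h2))
    refine ⟨UT, fun x hx g m => ?_⟩
    obtain ⟨n, hn, e⟩ := ctl_of_ag hT h0 h (UT hx) m
    exact e ▸ conj_mem_N (h2 hn) hx
  refine ⟨k, isBenderGroup ?_⟩
  have q := piGrp_of_isPGroup Nat.prime_two q2
  have l : ∀ X : Subgroup G, IsPGroup 2 X → X ≠ ⊥ → T ≤ N(X) → N(X) ≤ N(Q) := fun X h1 h2 h3 => by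
    obtain ⟨R, r1, -, r2, r3⟩ := H26.exists_maximal_ge (Q := IsTwoLocal) (L := ⊤) le_top ⟨X, h1, h2, rfl⟩
    have : R ∈ maxTwoLocalsContaining T := ⟨⟨r2, fun N a b => r3 N b le_top a⟩, h3.trans r1⟩
    rw [hM] at this
    exact this ▸ r1
  rcases goldschmidt (fun h => hG ⟨⟨fun a b => comm_of_cent h (mem_top a) (mem_top b)⟩⟩) (syl2 hT)
    (q.nil.Z_ne_bot q0) abel_Z (k _ (inf_le_left.trans le_N) (norm_inf le_rfl N_le_N_C) q2.to_inf_left) with
    ⟨H, se⟩ | ⟨e, -⟩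
  · exact H9.isBender_of_se se
  refine H9.isBender_of_se (AbS.se ⟨hT, e.abel⟩ h0 (fun f => ?_) (l T hT.pi.isPGroup h0 le_N) fun y hy y2 =>
    C1_le_N_zpowers.trans (l _ (hT.pi.isPGroup.to_le (zpowers_le.2 hy)) (zpowers_ne_bot.2 (ne1 y2))
      ((le_C1_iff.2 (e.abel hy)).trans C1_le_N_zpowers)))
  rcases IsSimpleGroup.eq_bot_or_eq_top_of_normal Q (normalizer_eq_top_iff.1 f) with f | f
  · exact q0 f
  · exact not_solv_top hG (f ▸ q.solv)

end H4.Gs
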