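import Cfsg.Agent.H26.Qw0

/-! Piece `P1b` of S1829: fusion of involutions in the Sylow subgroup `D₈ ≀ 2`. -/
set_option autoImplicit false
namespace H4.QwB
open Subgroup H326.Qw

variable {G : Type*} [Group G] [Finite G]

/-- a `2`-subgroup of `Y` is conjugate in `Y` into a Sylow subgroup of `Y` -/
theorem syl {Y S R : Subgroup G} (hS : IsPGroup 2 S) (i : ¬ 2 ∣ S.relIndex Y) (hR : IsPGroup 2 R) (l : R ≤ Y) :
    ∃ n ∈ Y, ∀ r ∈ R, n * r * n⁻¹ ∈ S := by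
  obtain ⟨Q, hQ⟩ := (hR.comap_subtype (K := Y)).exists_le_sylow
  obtain ⟨n, hn⟩ := MulAction.exists_smul_eq Y Q ((hS.comap_subtype (K := Y)).toSylow i)
  refine ⟨n, n.2, fun r hr => ?_⟩
  have h1 : (⟨r, l hr⟩ : Y) ∈ (Q : Subgroup Y) := hQ hr
  have h2 : n * ⟨r, l hr⟩ * n⁻¹ ∈ ((n • Q : Sylow 2 Y) : Subgroup Y) := by
    rw [Sylow.coe_subgroup_smul]
    exact ⟨_, h1, rfl⟩
  rw [hn] at h2
  exact h2

/-- a Sylow subgroup of `Y` above a given `2`-subgroup -/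
theorem syl_ex {Y R : Subgroup G} (hR : IsPGroup 2 R) (l : R ≤ Y) :
    ∃ S, R ≤ S ∧ S ≤ Y ∧ IsPGroup 2 S ∧ ¬ 2 ∣ S.relIndex Y := by
  obtain ⟨Q, hQ⟩ := (hR.comap_subtype (K := Y)).exists_le_sylow
  refine ⟨(Q : Subgroup Y).map Y.subtype, fun r hr => ⟨⟨r, l hr⟩, hQ hr, rfl⟩, map_subtype_le _,
    Q.isPGroup'.map _, ?_⟩
  have : ((Q : Subgroup Y).map Y.subtype).subgroupOf Y = Q := comap_map_eq_self_of_injective Y.subtype_injective _
  rw [relIndex, this]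
  exact Q.not_dvd_index

variable {ψ : TT →* G}

theorem pT : IsPGroup 2 TT := IsPGroup.of_card (n := 7) card_TT

omit [Finite G] in
theorem pmap (f : TT →* G) (X : Subgroup TT) : IsPGroup 2 (X.map f) := (pT.to_subgroup X).map f

omit [Finite G] in
theorem Mp.mul {X Y W : Subgroup TT} {g h : G} (a : Mp ψ X Y g) (b : Mp ψ Y W h) : Mp ψ X W (h * g) := fun t ht =>
  let ⟨t', h1, e1⟩ := a t ht
  let ⟨t'', h2, e2⟩ := b t' h1
  ⟨t'', h2, by rw [← e2, ← e1]; group⟩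

theorem Mp.inv {X : Subgroup TT} {g : G} (a : Mp ψ X X g) : Mp ψ X X g⁻¹ := by
  obtain ⟨k, hk⟩ := mem_powers_iff_mem_zpowers.2 (inv_mem (mem_zpowers g))
  rw [← hk]
  clear hk
  induction k with
  | zero => exact fun t ht => ⟨t, ht, by simp⟩
  | succ k ih => simpa only [pow_succ] using Mp.mul a ih

theorem toT (i : ¬ 2 ∣ ψ.range.index) {S : Subgroup G} (hS : IsPGroup 2 S) : ∃ m, ∀ r ∈ S, m * r * m⁻¹ ∈ ψ.range :=
  let ⟨m, _, h⟩ := syl (Y := ⊤) (S := ψ.range) (by rw [MonoidHom.range_eq_map]; exact pmap ψ ⊤)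
    (by rwa [relIndex_top_right]) hS le_top
  ⟨m, h⟩

theorem cle (inj : Function.Injective ψ) {S : Subgroup G} {W : Subgroup TT} {m : G}
    (h : ∀ r ∈ S, ∃ w ∈ W, m * r * m⁻¹ = ψ w) : Nat.card S ≤ Nat.card W := by
  have e1 : Nat.card (S.map (MulAut.conj m).toMonoidHom) = Nat.card S :=
    card_map_of_injective (MulAut.conj m).injective
  have e2 : Nat.card (W.map ψ) = Nat.card W := card_map_of_injective inj
  rw [← e1, ← e2]
  refine card_le_of_le ?_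
  rintro _ ⟨r, hr, rfl⟩
  obtain ⟨w, hw, e⟩ := h r hr
  exact ⟨w, hw, e.symm⟩

/-- Burnside's fusion argument for a weakly closed abelian subgroup -/
theorem fus (i : ¬ 2 ∣ ψ.range.index) {X : Subgroup TT} (ab : ∀ a ∈ X, ∀ b ∈ X, a * b = b * a)
    (w : ∀ g, Mp ψ X ⊤ g → Mp ψ X X g) {t t' : TT} (ht : t ∈ X) (ht' : t' ∈ X) (c : Cj ψ t t') :
    ∃ g, Mp ψ X X g ∧ g * ψ t * g⁻¹ = ψ t' := by
  obtain ⟨c, hc⟩ := isConj_iff.1 c
  obtain ⟨S, l1, l2, pS, iS⟩ := syl_ex (Y := centralizer {ψ t'}) (pmap ψ X) (by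
    rintro _ ⟨a, ha, rfl⟩
    rw [mem_centralizer_singleton_iff, ← map_mul, ← map_mul, ab a ha t' ht'])
  obtain ⟨n, hn, h⟩ := syl pS iS (pmap ((MulAut.conj c).toMonoidHom.comp ψ) X) (by
    rintro _ ⟨a, ha, rfl⟩
    rw [mem_centralizer_singleton_iff, ← hc]
    have := congrArg ψ (ab a ha t ht)
    rw [map_mul, map_mul] at this
    change c * ψ a * c⁻¹ * _ = _ * (c * ψ a * c⁻¹)
    calc _ = c * (ψ a * ψ t) * c⁻¹ := by group
      _ = _ := by rw [this]; group)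
  obtain ⟨m, hm⟩ := toT i pS
  have a1 : Mp ψ X X m := w m fun a ha => let ⟨b, e⟩ := hm _ (l1 ⟨a, ha, rfl⟩); ⟨b, mem_top _, e.symm⟩
  have a2 : Mp ψ X X (m * (n * c)) := w _ fun a ha => by
    obtain ⟨b, e⟩ := hm _ (h _ ⟨a, ha, rfl⟩)
    refine ⟨b, mem_top _, ?_⟩
    rw [e]
    change _ = m * (n * (c * ψ a * c⁻¹) * n⁻¹) * m⁻¹
    group
  refine ⟨n * c, by simpa using Mp.mul a2 (Mp.inv a1), ?_⟩
  have := mem_centralizer_singleton_iff.1 hn
  calc _ = n * (c * ψ t * c⁻¹) * n⁻¹ := by group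
    _ = _ := by rw [hc, this]; group

theorem card_J : Nat.card J = 64 := by rw [Nat.card_eq_fintype_card]; decide +kernel
theorem card_E : Nat.card E = 16 := by rw [Nat.card_eq_fintype_card]; decide +kernel
theorem card_Z : Nat.card Z = 4 := by rw [Nat.card_eq_fintype_card]; decide +kernel

theorem sylJ (inj : Function.Injective ψ) (i : ¬ 2 ∣ ψ.range.index) {Y : Subgroup G} (l : J.map ψ ≤ Y)
    (H : ∀ S, J.map ψ ≤ S → S ≤ Y → ∀ m, (∀ r ∈ S, m * r * m⁻¹ ∈ ψ.range) → Nat.card S ≤ 64) :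
    ¬ 2 ∣ (J.map ψ).relIndex Y := by
  obtain ⟨S, l1, l2, pS, iS⟩ := syl_ex (pmap ψ J) l
  obtain ⟨m, hm⟩ := toT i pS
  rwa [eq_of_le_of_card_ge l1 (by rw [card_map_of_injective inj, card_J]; exact H S l1 l2 m hm)]

/-- conjugating a centralizer into a Sylow subgroup of the centralizer of the target -/
theorem exc {W : Subgroup TT} {t t' : TT} (i : ¬ 2 ∣ (W.map ψ).relIndex (centralizer {ψ t'})) (c : Cj ψ t t') :
    ∃ g, g * ψ t * g⁻¹ = ψ t' ∧ Mp ψ (centralizer {t}) W g := by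
  obtain ⟨c, hc⟩ := isConj_iff.1 c
  obtain ⟨n, hn, h⟩ := syl (pmap ψ W) i (pmap ((MulAut.conj c).toMonoidHom.comp ψ) (centralizer {t})) (by
    rintro _ ⟨a, ha, rfl⟩
    rw [mem_centralizer_singleton_iff, ← hc]
    have := congrArg ψ (mem_centralizer_singleton_iff.1 ha)
    rw [map_mul, map_mul] at this
    change c * ψ a * c⁻¹ * _ = _ * (c * ψ a * c⁻¹)
    calc _ = c * (ψ a * ψ t) * c⁻¹ := by group
      _ = _ := by rw [this]; group)
  refine ⟨n * c, ?_, fun a ha => ?_⟩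
  · have := mem_centralizer_singleton_iff.1 hn
    calc _ = n * (c * ψ t * c⁻¹) * n⁻¹ := by group
      _ = _ := by rw [hc, this]; group
  · obtain ⟨b, hb, e⟩ := h _ ⟨a, ha, rfl⟩
    refine ⟨b, hb, ?_⟩
    rw [e]
    change _ = n * (c * ψ a * c⁻¹) * n⁻¹
    group

theorem dA : ∀ a ∈ A, ∀ b ∈ A, a * b = b * a := by decide +kernel
theorem dB : ∀ a ∈ B, ∀ b ∈ B, a * b = b * a := by decide +kernel
theorem dc : ∀ w : TT, (∀ t, t * w = w * t) → w = 1 ∨ w = z := by decide +kernel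
theorem dz : ∀ t : TT, t * z = z * t := by decide +kernel
theorem dz1 : ∀ t ∈ J, t * z1 = z1 * t := by decide +kernel
theorem dJE : ∀ t ∈ J, ∀ e ∈ E, t * e * t⁻¹ ∈ E := by decide +kernel
theorem dE : ∀ w, w ∉ J → ∀ e ∈ E, w * e * w⁻¹ ∈ E → e ∈ Z := by decide +kernel
theorem dE' : ∀ w, w ∉ J → ∀ e ∈ E', w * e * w⁻¹ ∈ E' → e ∈ Z := by decide +kernel
theorem dsq : ∀ t ∈ J, ∀ e ∈ E, t * t * e = e * (t * t) := by decide +kernel
theorem dEJ : ∀ e ∈ E, e ∈ J := by decide +kernel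

universe u

theorem p1b : P1b.{u} := by
  intro G _ _ ψ x c w
  have ab : ¬ Cj ψ z1 z := fun h =>
    let ⟨g, a, e⟩ := fus c.syl dA w.wA (by decide) (by decide) h
    c.nA g a e
  have sJ : ¬ 2 ∣ (J.map ψ).relIndex (centralizer {ψ z1}) := by
    refine sylJ c.inj c.syl ?_ fun S l1 l2 m hm => ?_
    · rintro _ ⟨a, ha, rfl⟩
      rw [mem_centralizer_singleton_iff, ← map_mul, ← map_mul, dz1 a ha]
    obtain ⟨y, hy⟩ := hm _ (l1 ⟨z1, (by decide : z1 ∈ J), rfl⟩)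
    have h1 : Nat.card S ≤ Nat.card (centralizer {y}) := cle c.inj (m := m) fun r hr => by
      obtain ⟨b, e⟩ := hm r hr
      refine ⟨b, mem_centralizer_singleton_iff.2 (c.inj ?_), e.symm⟩
      have := mem_centralizer_singleton_iff.1 (l2 hr)
      rw [map_mul, map_mul, e, hy]
      calc _ = m * (r * ψ z1) * m⁻¹ := by group
        _ = _ := by rw [this]; group
    have h2 : (centralizer {y}).index ≠ 1 := fun e => by
      rw [index_eq_one] at e
      rcases dc y fun t => mem_centralizer_singleton_iff.1 (e ▸ mem_top t) with rfl | rfl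
      · rw [map_one, eq_comm, conj_eq_one_iff, ← ψ.map_one] at hy
        exact absurd (c.inj hy) (by decide)
      · exact ab (isConj_iff.2 ⟨m, hy.symm⟩)
    have h3 := (centralizer {y}).card_mul_index
    have h4 := (centralizer {y}).index_ne_zero_of_finite
    rw [card_TT] at h3
    have h5 : Nat.card (centralizer {y}) * 2 ≤ 128 := h3 ▸ Nat.mul_le_mul_left _ (by omega)
    omega
  refine ⟨w, ab, fun t ht t' ht' h => fus c.syl dB w.wB ht ht' h, sJ, fun t h => exc sJ h, fun t h => exc ?_ h,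
    fun g hg ⟨k, hk⟩ t ht => ?_⟩
  · rw [← MonoidHom.range_eq_map]
    refine fun d => c.syl (d.trans (relIndex_dvd_index_of_le ?_))
    rintro _ ⟨a, rfl⟩
    rw [mem_centralizer_singleton_iff, ← map_mul, ← map_mul, dz a]
  have nm : ∀ g, g ∈ normalizer (E.map ψ : Set G) ↔ Mp ψ E E g := fun g =>
    ⟨fun h a ha => let ⟨b, hb, e⟩ := H18.conj_mem_N h ⟨a, ha, rfl⟩; ⟨b, hb, e.symm⟩,
      fun h => H18.mem_N_of_finite (by
        rintro _ ⟨a, ha, rfl⟩
        obtain ⟨b, hb, e⟩ := h a ha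
        exact ⟨b, hb, e.symm⟩)⟩
  have sN : ¬ 2 ∣ (J.map ψ).relIndex (normalizer (E.map ψ : Set G)) := by
    refine sylJ c.inj c.syl ?_ fun S l1 l2 m hm => ?_
    · rintro _ ⟨a, ha, rfl⟩
      exact (nm _).2 fun e he => ⟨_, dJE a ha e he, by simp⟩
    rw [← card_J]
    refine cle c.inj (m := m) fun r hr => ?_
    obtain ⟨y, hy⟩ := hm r hr
    refine ⟨y, by_contra fun yJ => ?_, hy.symm⟩
    have key : ∀ X : Subgroup TT, Mp ψ E X m → (∀ e ∈ X, y * e * y⁻¹ ∈ X → e ∈ Z) → False := fun X a d => by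
      have : Nat.card (E.map ψ) ≤ Nat.card Z := cle c.inj (m := m) (by
        rintro _ ⟨e, he, rfl⟩
        obtain ⟨e1, h1, f1⟩ := a e he
        obtain ⟨e2, h2, f2⟩ := (nm r).1 (l2 hr) e he
        obtain ⟨e3, h3, f3⟩ := a e2 h2
        refine ⟨e1, d e1 h1 ?_, f1⟩
        have : y * e1 * y⁻¹ = e3 := c.inj (by rw [map_mul, map_mul, map_inv, hy, ← f1, ← f3, ← f2]; group)
        rwa [this])
      rw [card_map_of_injective c.inj, card_E, card_Z] at this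
      omega
    rcases w.wE m (fun a ha => let ⟨b, e⟩ := hm _ (l1 ⟨a, dEJ a ha, rfl⟩); ⟨b, mem_top _, e.symm⟩) with a | a
    · exact key E a (dE y yJ)
    · exact key E' a (dE' y yJ)
  have pg : IsPGroup 2 (zpowers g) := fun ⟨y, j, hj⟩ => ⟨k, Subtype.ext (by
    change y ^ 2 ^ k = 1
    rw [← hj, ← zpow_natCast, ← zpow_mul, mul_comm, zpow_mul, zpow_natCast, hk, one_zpow])⟩
  obtain ⟨n, hn, h⟩ := syl (pmap ψ J) sN pg (zpowers_le.2 ((nm g).2 hg))
  obtain ⟨j, hj, e⟩ := h g (mem_zpowers g)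
  obtain ⟨t', ht', e'⟩ := (nm n).1 hn t ht
  have := congrArg ψ (dsq j hj t' ht')
  simp only [map_mul] at this
  rw [e, ← e'] at this
  change g * g * ψ t = ψ t * (g * g)
  calc _ = n⁻¹ * (n * g * n⁻¹ * (n * g * n⁻¹) * (n * ψ t * n⁻¹)) * n := by group
    _ = _ := by rw [this]; group

end H4.QwB
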